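import Cfsg.Agent.H17.Icp4
import Cfsg.Agent.H20.Icp1
import Cfsg.Agent.H20.Icp3

/-! Intrinsic `2`-components: symmetry of normalization. -/

set_option autoImplicit false
set_option linter.unusedSectionVars false
set_option linter.unusedVariables false

namespace Cfsg.Agent.H1.Ic

open Subgroup Cfsg.Agent.FT Cfsg.Agent.GW

variable {G : Type*} [Group G] [Finite G] {J J' K D M Q T : Subgroup G} {a b x y : G}

theorem p7_cm (hT : PGrp 2 T) (hx : x ∈ T) (hy : y ∈ T) (h : x * y * x⁻¹ * y⁻¹ ∈ O[{2}ᶜ](K)) : x * y = y * x :=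
  mul_inv_eq_iff_eq_mul.1 (mul_inv_eq_one.1 ((hT.piElt (mul_mem (mul_mem (mul_mem hx hy) (inv_mem hx))
    (inv_mem hy))).eq_one_of_mem (pcore_pi _ K) h))

theorem p7_of
    (p3 : ∀ {J M : Subgroup G} {b : G}, PComp 2 J M → Invo b → b ∈ M → b ∉ N(J) →
      ∃ D, PComp 2 D (M ⊓ C[b]) ∧ D ≤ J ⊔ cj b J ∧ ¬ ⁅J, D⁆ ≤ O[{2}ᶜ](J) ∧
        (∀ x ∈ J, PiElt {2} x → x * (b * x * b⁻¹) = b * x * b⁻¹ * x → x * (b * x * b⁻¹) ∈ D) ∧
        ∀ U ≤ M ⊓ N(J), ⁅D, U⁆ ≤ O[{2}ᶜ](D) → ⁅J, U⁆ ≤ O[{2}ᶜ](J))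
    (hJ : Ic J a) (hK : Ic K b) (hn : a ∈ N(K)) : b ∈ N(J) := by
  by_contra hb
  have pz : ∀ {t : G}, Invo t → PGrp 2 ⟪t⟫ := fun ht => pGrp_zpowers Nat.prime_two ht
  have ab : a * b = b * a := mul_inv_eq_iff_eq_mul.1 (hK.uniq _ (conj_mem hn hK.mem) (hK.inv.conj a))
  have aa : a * a = 1 := by have := pow_orderOf_eq_one a; rwa [(hJ.inv : orderOf a = 2), pow_two] at this
  have a1 : a ≠ 1 := fun e => by have : orderOf a = 2 := hJ.inv; rw [e, orderOf_one] at this; omega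
  have bb : b * b = 1 := by have := pow_orderOf_eq_one b; rwa [(hK.inv : orderOf b = 2), pow_two] at this
  have bC : b ∈ C[a] := mem_cen1.2 ab.symm
  obtain ⟨D, hD, hle, hnc, hdiag, -⟩ := p3 hJ.pc hK.inv bC hb
  have hJ' := hJ.pc.cj_of_mem bC
  have hne : J ≠ cj b J := fun e => hb (cj_eq_self.1 e.symm)
  have JJ : ⁅J, cj b J⁆ ≤ O[{2}ᶜ](J) := (hJ.pc.comm_of_ne hJ' hne).trans inf_le_left
  have DN : D ≤ N(J) := hle.trans (sup_le (le_nrm J) (norms_of_comm_le (JJ.trans (pcore_le _ _))))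
  obtain ⟨T, hT, bT⟩ := (pz hK.inv).exists_syl (zpowers_le.2 bC)
  have bT := zpowers_le.1 bT
  obtain ⟨x, hx, xx, -⟩ := p4c hJ (hT.inf_subn hJ.pc.subn) hJ.inv
    (cen_le_nrm _ (le_cen1.1 (inf_le_left.trans hT.le)))
  have x2 : PiElt {2} x := hT.pi.piElt hx.1
  have nx : ¬ ⁅J, ⟪x⟫⁆ ≤ O[{2}ᶜ](J) := fun e => a1 (xx ▸ p4a hJ hx.2 x2 e)
  have x'J : b * x * b⁻¹ ∈ cj b J := conj_mem_cj.2 hx.2
  have cx : x * (b * x * b⁻¹) = b * x * b⁻¹ * x := p7_cm hT.pi hx.1 (mul_mem (mul_mem bT hx.1) (inv_mem bT))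
    (JJ (commutator_mem_commutator hx.2 x'J))
  have eD := hdiag x hx.2 x2 cx
  have x'x' : b * x * b⁻¹ * (b * x * b⁻¹) = a := by
    calc _ = b * (x * x) * b⁻¹ := by group
      _ = a := by rw [xx, ← ab]; group
  have xb : x * b * x⁻¹ = x * (b * x * b⁻¹) * b * a := by
    calc _ = x * (b * x * b⁻¹) * b * (x * x)⁻¹ := by group
      _ = _ := by rw [xx, inv_eq_of_mul_eq_one_right aa]
  have xe : x * (x * (b * x * b⁻¹)) = x * (b * x * b⁻¹) * x := by rw [mul_assoc x (b * x * b⁻¹), ← cx]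
  have ae : a * (x * (b * x * b⁻¹)) = x⁻¹ * (b * x * b⁻¹) := by
    calc _ = x⁻¹ * ((x * x) * (x * x)) * (b * x * b⁻¹) := by rw [← xx]; group
      _ = _ := by rw [xx, aa, mul_one]
  have ee : x * (b * x * b⁻¹) * (x * (b * x * b⁻¹)) = 1 := by
    calc _ = x * (b * x * b⁻¹ * x) * (b * x * b⁻¹) := by group
      _ = (x * x) * (b * x * b⁻¹ * (b * x * b⁻¹)) := by rw [← cx]; group
      _ = 1 := by rw [xx, x'x', aa]
  have cM : ∀ y, y ∈ cj b J → y ∈ cenMod 2 C[a] J := fun y hy => hJ.pc.le_cenMod.2 ⟨hJ'.le, JJ⟩ hy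
  have nx' : x ∉ cenMod 2 C[a] J := fun e => nx (hJ.pc.le_cenMod.1 (zpowers_le.2 e)).2
  have e1 : x * (b * x * b⁻¹) ≠ 1 := fun e => nx' (by
    rw [eq_inv_of_mul_eq_one_left e]; exact inv_mem (cM _ x'J))
  have nae : a * (x * (b * x * b⁻¹)) ∉ cenMod 2 C[a] J := fun e => nx' (by
    rw [ae] at e
    exact inv_mem_iff.1 ((mul_mem_cancel_right (cM _ x'J)).1 e))
  generalize x * (b * x * b⁻¹) = e at eD xb xe ee e1 nae
  have ie : Invo e := by
    haveI := Fact.mk Nat.prime_two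
    exact orderOf_eq_prime (by rw [pow_two, ee]) e1
  have ea : e * a = a * e := mem_cen1.1 (hD.le eD).1
  have eb : e * b = b * e := mem_cen1.1 (hD.le eD).2
  have KD : ⁅K, D⁆ ≤ O[{2}ᶜ](K) := (p1 hK.pc hJ.inv (mem_cen1.2 ab) hn (inf_comm C[a] C[b] ▸ hD)).resolve_left
    fun h => hb (hK.uniq e (h eD) ie ▸ DN eD)
  have eN : e ∈ N(K) := norms_of_comm_le (KD.trans (pcore_le _ _)) eD
  obtain ⟨R, hR, aR⟩ := ((pz hJ.inv).sup (pz ie) (zpowers_le.2 (cen_le_nrm _ (by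
    rw [cen_zpowers]; exact mem_cen1.2 ea)))).exists_syl (sup_le (zpowers_le.2 hn) (zpowers_le.2 eN))
  have aR' : a ∈ R := aR (mem_sup_left (mem_zpowers a))
  have eR : e ∈ R := aR (mem_sup_right (mem_zpowers e))
  obtain ⟨k, hk, kk, hka⟩ := p4c hK (hR.inf_subn (nml_nrm K).subn) hJ.inv
    (normsI (zpowers_le.2 (le_nrm R aR')) (zpowers_le.2 hn) (mem_zpowers a))
  have ke : k * e = e * k := p7_cm hR.pi hk.1 eR (KD (commutator_mem_commutator hk.2 eD))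
  have kb : k * b = b * k := mem_cen1.1 (hK.pc.le hk.2)
  rcases hka with hka | hka
  · have kC : k ∈ C[a] := mem_cen1.2 (mul_inv_eq_iff_eq_mul.1 hka).symm
    have k2 : ⟪k⟫ ≤ C[a] ⊓ C[b] := zpowers_le.2 ⟨kC, mem_cen1.2 kb⟩
    have kD : k ∈ N(D) := zpowers_le.1 (hD.normed_of_comm (norms_of_le k2) ((le_inf
      (((commSS le_rfl (zpowers_le.2 hk.2)).trans (commC K D ▸ KD)).trans hK.pc.core_le)
      (comm_le_of_le hD.le k2)).trans (pcore_inf_le _ inf_le_right)))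
    have hJk := hJ.pc.cj_of_mem kC
    have kJ : k ∉ N(J) := fun h => hb (kk ▸ mul_mem h h)
    have n1 : cj k J ≠ J := fun h => kJ (cj_eq_self.1 h)
    have n2 : cj k J ≠ cj b J := fun h => kJ (by
      have := cj_eq_cj_iff.1 h.symm
      rwa [← kk, inv_mul_cancel_left] at this)
    have := (hJk.le_cenMod.1 (hle.trans (sup_le
      (hJk.le_cenMod.2 ⟨hJ.pc.le, (hJk.comm_of_ne hJ.pc n1).trans inf_le_left⟩)
      (hJk.le_cenMod.2 ⟨hJ'.le, (hJk.comm_of_ne hJ' n2).trans inf_le_left⟩)))).2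
    rw [← cj_of_mem_nrm kD, ← cj_comm, ← cj_pcore, cj_le_cj] at this
    exact hnc this
  · have xa : x * a = a * x := by rw [← xx, mul_assoc]
    have ka : k * a * k⁻¹ = a * b := by
      have h1 : a * k = k * b * a := mul_inv_eq_iff_eq_mul.1 hka
      calc _ = (k * k) * k⁻¹ * (a * k) * (k * k)⁻¹ := by group
        _ = b * (b * a) * b⁻¹ := by rw [h1, kk]; group
        _ = a * b := by rw [← mul_assoc, bb, one_mul, inv_eq_of_mul_eq_one_right bb]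
    have g1 : k * x * b * (k * x)⁻¹ = a * e := by
      calc _ = k * (x * b * x⁻¹) * k⁻¹ := by group
        _ = (k * e) * k⁻¹ * (k * b) * k⁻¹ * (k * a * k⁻¹) := by rw [xb]; group
        _ = e * (b * a) * b := by rw [ke, kb, ka]; group
        _ = a * e := by rw [← ab, mul_assoc, mul_assoc, bb, mul_one, ea]
    have g2 : k * x * e * (k * x)⁻¹ = e := by
      calc _ = k * (x * e) * x⁻¹ * k⁻¹ := by group
        _ = (k * e) * k⁻¹ := by rw [xe]; group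
        _ = e := by rw [ke, mul_inv_cancel_right]
    have g3 : k * x * (b * e) * (k * x)⁻¹ = a := by
      calc _ = (k * x * b * (k * x)⁻¹) * (k * x * e * (k * x)⁻¹) := by group
        _ = a := by rw [g1, g2, mul_assoc, ee, mul_one]
    have hK' := hK.cj (k * x)
    rw [g1] at hK'
    have c1 : ⁅K, ⟪b * e⟫⁆ ≤ O[{2}ᶜ](K) := (hK.pc.le_cenMod.1 (zpowers_le.2 (mul_mem
      (hK.pc.le_cenMod.2 ⟨zpowers_le.2 (self_mem_cen1 b), (comm_eq_bot.2 (by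
        rw [cen_zpowers]; exact hK.pc.le)).le.trans bot_le⟩ (mem_zpowers b))
      (hK.pc.le_cenMod.2 ⟨hD.le.trans inf_le_right, KD⟩ eD)))).2
    rw [← cj_le_cj (g := k * x), cj_comm, cj_pcore, cj_zpowers, g3] at c1
    have q := (hK'.pc.pqs.cent_cover (pz hJ.inv) c1).1
    rw [cen_zpowers] at q
    have aeC : a * e ∈ C[a] := mem_cen1.2 (by rw [mul_assoc, ea])
    have m1 : a * e ∈ piGen {2} (cj (k * x) K ⊓ C[a]) :=
      mem_piGen ⟨hK'.mem, aeC⟩ ((pz hK'.inv).piElt (mem_zpowers _))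
    rcases p1 hJ.pc hK'.inv aeC (mul_mem (le_nrm J hJ.mem) (DN eD))
      ⟨Subn.nml_trans (piGen_nml _ _) (inf_comm C[a * e] C[a] ▸ hK'.pc.subn.inf_right C[a]), q⟩ with h | h
    · exact e1 (mul_eq_left.1 (hJ.uniq _ (h m1) hK'.inv))
    · exact nae (hJ.pc.le_cenMod.2 ⟨(piGen_le _ _).trans inf_le_right, h⟩ m1)

theorem p7 (hJ : Ic J a) (hK : Ic K b) (hn : a ∈ N(K)) : b ∈ N(J) :=
  p7_of (fun h1 h2 h3 h4 => p3 h1 h2 h3 h4) hJ hK hn

end Cfsg.Agent.H1.Ic
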