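import Mathlib
import Cfsg.Agent.H29.Large
import Cfsg.Agent.H1.AutOrb

/-! The centralizer of a transvection in `SL_{n+2}(2)` as an explicit group. -/

set_option autoImplicit false

namespace Cfsg.Agent.H13.Hs

open Matrix Subgroup Cfsg.Agent.H29
open scoped MatrixGroups

abbrev W (n : ℕ) := Fin n → ZMod 2

@[ext] structure H (n : ℕ) where
  A : GL (Fin n) (ZMod 2)
  u : W n
  v : W n
  c : ZMod 2

variable {n : ℕ}

instance : Mul (H n) :=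
  ⟨fun x y => ⟨x.A * y.A, x.u + x.A.1 *ᵥ y.u, x.v ᵥ* y.A.1 + y.v, x.c + y.c + x.v ⬝ᵥ y.u⟩⟩
instance : One (H n) := ⟨⟨1, 0, 0, 0⟩⟩
instance : Inv (H n) :=
  ⟨fun x => ⟨x.A⁻¹, -(x.A⁻¹.1 *ᵥ x.u), -(x.v ᵥ* x.A⁻¹.1), -x.c + x.v ᵥ* x.A⁻¹.1 ⬝ᵥ x.u⟩⟩

theorem mul_def (x y : H n) : x * y =
  ⟨x.A * y.A, x.u + x.A.1 *ᵥ y.u, x.v ᵥ* y.A.1 + y.v, x.c + y.c + x.v ⬝ᵥ y.u⟩ := rfl
theorem one_def : (1 : H n) = ⟨1, 0, 0, 0⟩ := rfl

instance : Group (H n) := Group.ofLeftAxioms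
  (fun x y z => H.ext (mul_assoc _ _ _) (by simp [mul_def, mulVec_add, add_assoc])
    (by simp [mul_def, add_vecMul, add_assoc])
    (by simp [mul_def, dotProduct_mulVec]; ring))
  (fun x => by ext1 <;> simp [mul_def, one_def])
  (fun x => H.ext (inv_mul_cancel x.A) (neg_add_cancel _)
    (by
      change -(x.v ᵥ* x.A⁻¹.1) ᵥ* x.A.1 + x.v = 0
      rw [neg_vecMul, vecMul_vecMul, Units.inv_mul, vecMul_one, neg_add_cancel])
    (by
      change -x.c + x.v ᵥ* x.A⁻¹.1 ⬝ᵥ x.u + x.c + -(x.v ᵥ* x.A⁻¹.1) ⬝ᵥ x.u = 0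
      rw [neg_dotProduct]; ring))

instance : Finite (H n) := Finite.of_injective (fun x => (x.A, x.u, x.v, x.c)) fun x y h => by
  simp only [Prod.mk.injEq] at h
  exact H.ext h.1 h.2.1 h.2.2.1 h.2.2.2

def ρ : H n →* GL (Fin n) (ZMod 2) := MonoidHom.mk' H.A fun _ _ => rfl
def κ : GL (Fin n) (ZMod 2) →* H n := MonoidHom.mk' (fun A => ⟨A, 0, 0, 0⟩) fun _ _ => by simp [mul_def]
def ι : Multiplicative (ZMod 2 × W n) →* H n :=
  MonoidHom.mk' (fun x => ⟨1, 0, x.toAdd.2, x.toAdd.1⟩) fun _ _ => by simp [mul_def]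
def z0 : H n := ⟨1, 0, 0, 1⟩

theorem add_self (w : W n) : w + w = 0 := funext fun i => CharTwo.add_self_eq_zero (w i)

theorem cen {x : H n} (h : x ∈ centralizer ((ρ : H n →* _).ker : Set (H n))) : x = 1 ∨ x = z0 := by
  have h1 : ∀ w : W n, x.A.1 *ᵥ w = w ∧ x.v ⬝ᵥ w = 0 ∧ w ⬝ᵥ x.u = 0 := fun w => by
    have a := h ⟨1, w, 0, 0⟩ rfl
    have b := h ⟨1, 0, w, 0⟩ rfl
    simp [mul_def, add_comm w] at a b
    exact ⟨a.1.symm, a.2, b.2⟩
  have h2 : x.A = 1 := Units.ext (Matrix.toLin'.injective (LinearMap.ext fun w => by simp [h1]))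
  have h3 : x.u = 0 := funext fun i => by simpa using (h1 (Pi.single i 1)).2.2
  have h4 : x.v = 0 := funext fun i => by simpa using (h1 (Pi.single i 1)).2.1
  exact ((by decide : ∀ c : ZMod 2, c = 0 ∨ c = 1) x.c).imp (H.ext h2 h3 h4) (H.ext h2 h3 h4)

theorem es (hn : 1 ≤ n) : ES (ρ : H n →* _).ker z0 where
  ne := fun e => one_ne_zero (congrArg H.c e)
  zz := by simp [mul_def, z0, one_def]; rfl
  mem := rfl
  sq := fun x hx => by
    have h : x.A = 1 := hx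
    refine ((by decide : ∀ c : ZMod 2, c = 0 ∨ c = 1) (x * x).c).imp (H.ext ?_ ?_ ?_)
      (H.ext ?_ ?_ ?_) <;> simp [mul_def, h, one_def, z0, add_self]
  om := fun _ _ h _ => cen h
  cen := fun _ _ h => cen h
  nab := fun h => by
    rcases cen (h (show (⟨1, Pi.single ⟨0, hn⟩ 1, 0, 0⟩ : H n) ∈ ρ.ker from rfl)) with e | e <;>
      simpa [one_def, z0] using congrFun (congrArg H.u e) ⟨0, hn⟩

theorem card_ker : Nat.card (ρ : H n →* _).ker = 2 ^ (2 * n + 1) := by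
  rw [Nat.card_congr (β := W n × W n × ZMod 2) ⟨fun x => (x.1.u, x.1.v, x.1.c),
    fun y => ⟨⟨1, y.1, y.2.1, y.2.2⟩, rfl⟩, fun x => Subtype.ext (H.ext x.2.symm rfl rfl rfl),
    fun _ => rfl⟩]
  simp; ring

theorem pCore_gl : pCore 2 (GL (Fin n) (ZMod 2)) = ⊥ := by
  refine eq_bot_iff.2 fun g hg => Units.ext (Matrix.toLin'.injective (LinearMap.ext fun w => ?_))
  by_cases hw : w = 0
  · simp [hw]
  obtain ⟨i, -⟩ := Function.ne_iff.1 hw
  letI : MulAction (GL (Fin n) (ZMod 2)) (W n) :=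
    { smul := fun g v => g.1 *ᵥ v, one_smul := one_mulVec, mul_smul := fun _ _ _ => (mulVec_mulVec _ _ _).symm }
  obtain ⟨v, hv, hv0⟩ := (H2.pCore_isPGroup (p := 2) (G := GL (Fin n) (ZMod 2))).exists_fixed_point_of_prime_dvd_card_of_fixed_point
    (W n) (by simpa using i.pos.ne') (a := 0) fun g => mulVec_zero _
  obtain ⟨A, rfl⟩ := H1.exists_equiv_field (K := ZMod 2) rfl hv0.symm hw
  obtain ⟨B, hB⟩ := GeneralLinearGroup.toLin.surjective (LinearMap.GeneralLinearGroup.ofLinearEquiv A)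
  replace hB : B.1 *ᵥ v = A v := congrArg (fun x => x.1 v) hB
  have h : (B⁻¹ * g * B⁻¹⁻¹).1 *ᵥ v = v := hv ⟨_, (pCore_normal 2 _).conj_mem g hg B⁻¹⟩
  change g.1 *ᵥ A v = (1 : Matrix _ _ _) *ᵥ A v
  rw [← hB, one_mulVec]
  conv_rhs => rw [← h]
  rw [mulVec_mulVec, mulVec_mulVec, ← Units.val_mul, ← Units.val_mul]
  congr 2; group

theorem pCore_H (hn : 1 ≤ n) : pCore 2 (H n) = ρ.ker :=
  le_antisymm ((Subgroup.map_eq_bot_iff _).1 (eq_bot_iff.2 (pCore_gl ▸ H2.pCore_map_le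
    fun A => ⟨κ A, rfl⟩))) (H2.le_pCore (es hn).pgrp)

theorem core {G : Type*} [Group G] [Finite G] (hn : 1 ≤ n) (θ : H n →* G) (hθ : Function.Injective θ)
    {C : Subgroup G} (hC : C = centralizer {θ z0}) (hr : θ.range = C) {Q : Subgroup G}
    (hQ : Q = (pCore 2 C).map C.subtype) : Q = ρ.ker.map θ ∧ LE Q (θ z0) ∧ Nat.card Q = 2 ^ (2 * n + 1) ∧
    (∃ E : Subgroup G, E ≤ Q ∧ IsElementaryAbelian 2 E ∧ Nat.card E = 2 ^ (n + 1)) ∧
    ∃ K : Subgroup G, K ≤ C ∧ Q ⊓ K = ⊥ ∧ Q ⊔ K = C ∧ Nonempty (K ≃* GL (Fin n) (ZMod 2)) := by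
  subst hr
  obtain rfl : Q = ρ.ker.map θ := by
    rw [hQ, ← H2.pCore_map_equiv (MonoidHom.ofInjective hθ), Subgroup.map_map, pCore_H hn]; rfl
  have hκ : Function.Injective (κ : _ →* H n) := fun _ _ e => congrArg H.A e
  have hι : Function.Injective (ι : _ →* H n) := fun _ _ e =>
    Prod.ext (congrArg H.c e) (congrArg H.v e)
  have h1 := (es hn).map θ fun x _ e => hθ (e.trans (map_one θ).symm)
  refine ⟨rfl, ⟨h1, ?_, fun x hx => ?_⟩, by rw [card_map_of_injective hθ, card_ker],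
    ⟨(θ.comp ι).range, ?_, ⟨inferInstance, ?_⟩, ?_⟩, (θ.comp κ).range, ?_, ?_, ?_,
    ⟨(MonoidHom.ofInjective (f := θ.comp κ) (hθ.comp hκ)).symm⟩⟩
  · rw [← hC, MonoidHom.range_eq_map]
    exact (map_mono le_normalizer_of_normal).trans (le_normalizer_map θ)
  · obtain ⟨y, rfl⟩ := hC.ge (mem_centralizer_singleton_iff.2 (hx _ h1.mem).symm)
    rcases cen (x := y) fun w hw => hθ (by rw [map_mul, map_mul]; exact hx _ ⟨w, hw, rfl⟩) with rfl | rfl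
    exacts [⟨1, rfl, rfl⟩, h1.mem]
  · rintro _ ⟨x, rfl⟩; exact ⟨ι x, rfl, rfl⟩
  · rintro _ ⟨x, rfl⟩
    rw [← map_pow, show x ^ 2 = 1 from sq x ▸ Prod.ext (CharTwo.add_self_eq_zero _) (add_self _),
      map_one]
  · rw [← Nat.card_congr (MonoidHom.ofInjective (f := θ.comp ι) (hθ.comp hι)).toEquiv]; simp; ring
  · rintro _ ⟨x, rfl⟩; exact ⟨_, rfl⟩
  · rw [MonoidHom.range_comp, ← map_inf_eq _ _ _ hθ, map_eq_bot_iff_of_injective _ hθ, eq_bot_iff]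
    rintro _ ⟨h, A, rfl⟩
    rw [show A = 1 from h, map_one]; exact one_mem _
  · rw [MonoidHom.range_comp, ← Subgroup.map_sup, MonoidHom.range_eq_map θ]
    refine congrArg _ (eq_top_iff.2 fun x _ => ?_)
    rw [← inv_mul_cancel_right x (κ x.A)]
    exact mul_mem (mem_sup_left (mul_inv_cancel x.A)) (mem_sup_right ⟨_, rfl⟩)

end Cfsg.Agent.H13.Hs
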