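import Mathlib
import Cfsg.Agent.H13.Re7
import Cfsg.Agent.H13.SzMult
import Cfsg.Agent.FT.Quo

/-!
Small Ree groups: the Schur multiplier.
-/

set_option autoImplicit false
set_option linter.unusedSectionVars false
namespace Cfsg.Agent.H13
open MulAction Subgroup Cfsg.Agent.FT
open scoped commutatorElement

theorem exists_not_additive {K : Type*} [Field K] [Finite K] {e : ℕ} (he : 0 < e) (h : 2 * e + 2 < Nat.card K) :
    ∃ a : K, a ≠ 0 ∧ 1 + a ≠ 0 ∧ ((1 + a) ^ e)⁻¹ - (1 + (a ^ e)⁻¹) ≠ 0 := by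
  classical
  letI := Fintype.ofFinite K
  by_contra! h1
  let f : Polynomial K := (1 + Polynomial.X) ^ e * (Polynomial.X ^ e + 1) - Polynomial.X ^ e
  have h2 : f.natDegree ≤ 2 * e := by
    refine (Polynomial.natDegree_sub_le _ _).trans (max_le (Polynomial.natDegree_mul_le.trans ?_) (by simp; omega))
    have e1 : ((1 + Polynomial.X : Polynomial K) ^ e).natDegree ≤ e :=
      Polynomial.natDegree_pow_le.trans (by rw [add_comm, ← Polynomial.C_1, Polynomial.natDegree_X_add_C, mul_one])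
    have e2 : ((Polynomial.X : Polynomial K) ^ e + 1).natDegree ≤ e := by
      rw [← Polynomial.C_1, Polynomial.natDegree_X_pow_add_C]
    omega
  have h3 := Polynomial.eq_zero_of_natDegree_lt_card_of_eval_eq_zero' f (Finset.univ \ {0, -1}) (fun a ha => by
    simp only [Finset.mem_sdiff, Finset.mem_univ, Finset.mem_insert, Finset.mem_singleton, true_and, not_or] at ha
    have h4 : 1 + a ≠ 0 := fun e => ha.2 (by linear_combination e)
    have h5 := h1 a ha.1 h4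
    have h6 := pow_ne_zero e ha.1
    have h7 := pow_ne_zero e h4
    simp only [f, Polynomial.eval_sub, Polynomial.eval_mul, Polynomial.eval_pow, Polynomial.eval_add,
      Polynomial.eval_one, Polynomial.eval_X]
    field_simp at h5
    linear_combination -h5) (by
    rw [Finset.card_sdiff_of_subset (Finset.subset_univ _), Finset.card_univ, ← Nat.card_eq_fintype_card]
    have := Finset.card_le_two (a := (0 : K)) (b := -1)
    omega)
  have h4 := congrArg (Polynomial.eval 0) h3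
  simp [f, he.ne'] at h4

theorem biadditive_eq_one {K M : Type*} [Field K] [Finite K] [Group M] {e : ℕ} (he : 0 < e)
    (h : 2 * e + 2 < Nat.card K) (β : K → K → M) (h1 : ∀ a a' b, β (a + a') b = β a' b * β a b)
    (h2 : ∀ a b b', β a (b + b') = β a b * β a b')
    (h3 : ∀ c, c ≠ 0 → (∀ a b, β (c * a) (c ^ e * b) = β a b) ∨ ∀ a b, β (-(c * a)) (-(c ^ e * b)) = β a b)
    (a b : K) : β a b = 1 := by
  have z1 : ∀ b, β 0 b = 1 := fun b => by simpa using h1 0 0 b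
  have z2 : ∀ a, β a 0 = 1 := fun a => by simpa using h2 a 0 0
  have n1 : ∀ a b, β (-a) (-b) = β a b := fun a b => by
    have e1 := h1 a (-a) (-b)
    have e2 := h2 a b (-b)
    rw [add_neg_cancel] at e1 e2
    rw [z1] at e1
    rw [z2] at e2
    exact mul_right_cancel (e1.symm.trans e2)
  have h4 : ∀ c b, c ≠ 0 → β c b = β 1 ((c ^ e)⁻¹ * b) := fun c b hc => by
    rcases h3 c hc with h | h <;> rw [← h 1, mul_one, mul_inv_cancel_left₀ (pow_ne_zero e hc)]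
    rw [n1]
  have h5 : ∀ b, β 1 b = 1 := fun b => by
    obtain ⟨a, ha0, ha1, ha⟩ := exists_not_additive he h
    obtain ⟨c, rfl⟩ : ∃ c, b = (((1 + a) ^ e)⁻¹ - (1 + (a ^ e)⁻¹)) * c := ⟨_, (mul_inv_cancel_left₀ ha b).symm⟩
    have e1 := h2 1 ((((1 + a) ^ e)⁻¹ - (1 + (a ^ e)⁻¹)) * c) ((a ^ e)⁻¹ * c + c)
    rw [h2 1 ((a ^ e)⁻¹ * c), ← h4 _ _ ha0, ← h1, h4 _ _ ha1, show (((1 + a) ^ e)⁻¹ - (1 + (a ^ e)⁻¹)) * c +
      ((a ^ e)⁻¹ * c + c) = ((1 + a) ^ e)⁻¹ * c by ring] at e1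
    exact right_eq_mul.1 e1
  by_cases ha : a = 0
  · rw [ha, z1]
  · rw [h4 _ _ ha, h5]

/-- commutators of two sections isomorphic to `K` with an action of `Kˣ` -/
theorem commutator_mem_of_coord {Γ K : Type*} [Group Γ] [Field K] [Finite K] {e : ℕ} (he : 0 < e)
    (h : 2 * e + 2 < Nat.card K) {X Y W N E : Subgroup Γ} (hW : W ≤ N(N)) (hXY : ∀ x ∈ X, ∀ y ∈ Y, ⁅x, y⁆ ∈ W)
    (hX : ∀ x ∈ X, ∀ w ∈ W, ⁅x, w⁆ ∈ N) (hY : ∀ x ∈ Y, ∀ w ∈ W, ⁅x, w⁆ ∈ N) (hE : ∀ x ∈ E, ∀ w ∈ W, ⁅x, w⁆ ∈ N)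
    (f g : Γ → K) (hf : ∀ x ∈ X, ∀ x' ∈ X, f (x * x') = f x + f x') (hg : ∀ x ∈ Y, ∀ x' ∈ Y, g (x * x') = g x + g x')
    (sf : ∀ a, ∃ x ∈ X, f x = a) (sg : ∀ a, ∃ x ∈ Y, g x = a)
    (kf : ∀ x ∈ X, f x = 0 → ∀ y ∈ Y, ⁅x, y⁆ ∈ N) (kg : ∀ y ∈ Y, g y = 0 → ∀ x ∈ X, ⁅x, y⁆ ∈ N)
    (inv : ∀ c : K, c ≠ 0 → ∃ n ∈ E, ∃ ε : K, (ε = 1 ∨ ε = -1) ∧
      (∀ x ∈ X, n * x * n⁻¹ ∈ X ∧ f (n * x * n⁻¹) = ε * (c * f x)) ∧
      ∀ y ∈ Y, n * y * n⁻¹ ∈ Y ∧ g (n * y * n⁻¹) = ε * (c ^ e * g y)) :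
    ∀ x ∈ X, ∀ y ∈ Y, ⁅x, y⁆ ∈ N := by
  have key : ∀ x w, w ∈ W → ⁅x, w⁆ ∈ N → coset(N, x * w * x⁻¹) = coset(N, w) ∧ x * w * x⁻¹ ∈ N(N) :=
    fun x w hw h => by
    have e : x * w * x⁻¹ = ⁅x, w⁆ * w := by rw [commutatorElement_def]; group
    rw [e, coset_mul (le_nrm N h) (hW hw), coset_of_mem h, one_mul]
    exact ⟨rfl, mul_mem (le_nrm N h) (hW hw)⟩
  have hl : ∀ x ∈ X, ∀ x' ∈ X, ∀ y ∈ Y, coset(N, ⁅x * x', y⁆) = coset(N, ⁅x', y⁆) * coset(N, ⁅x, y⁆) :=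
    fun x hx x' hx' y hy => by
    have e : ⁅x * x', y⁆ = x * ⁅x', y⁆ * x⁻¹ * ⁅x, y⁆ := by simp only [commutatorElement_def]; group
    have h1 := key x _ (hXY x' hx' y hy) (hX x hx _ (hXY x' hx' y hy))
    rw [e, coset_mul h1.2 (hW (hXY x hx y hy)), h1.1]
  have hr : ∀ x ∈ X, ∀ y ∈ Y, ∀ y' ∈ Y, coset(N, ⁅x, y * y'⁆) = coset(N, ⁅x, y⁆) * coset(N, ⁅x, y'⁆) :=
    fun x hx y hy y' hy' => by
    have e : ⁅x, y * y'⁆ = ⁅x, y⁆ * (y * ⁅x, y'⁆ * y⁻¹) := by simp only [commutatorElement_def]; group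
    have h1 := key y _ (hXY x hx y' hy') (hY y hy _ (hXY x hx y' hy'))
    rw [e, coset_mul (hW (hXY x hx y hy)) h1.2, h1.1]
  choose s hs hs' using sf
  choose r hr' hr'' using sg
  have h1 : ∀ x ∈ X, ∀ y ∈ Y, coset(N, ⁅x, y⁆) = coset(N, ⁅s (f x), r (g y)⁆) := fun x hx y hy => by
    have h2 := mul_mem (inv_mem (hs (f x))) hx
    have h3 := mul_mem (inv_mem (hr' (g y))) hy
    have e1 := hf _ (hs (f x)) _ h2
    have e2 := hg _ (hr' (g y)) _ h3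
    have e3 := hl _ (hs (f x)) _ h2 y hy
    have e4 := hr _ (hs (f x)) _ (hr' (g y)) _ h3
    rw [mul_inv_cancel_left] at e1 e2 e3 e4
    rw [hs'] at e1
    rw [hr''] at e2
    rw [e3, e4, coset_of_mem (kf _ h2 (left_eq_add.1 e1) y hy), coset_of_mem (kg _ h3 (left_eq_add.1 e2) _ (hs _)),
      one_mul, mul_one]
  intro x hx y hy
  rw [← coset_eq_one_iff (hW (hXY x hx y hy)), h1 x hx y hy]
  refine biadditive_eq_one he h (fun a b => coset(N, ⁅s a, r b⁆)) (fun a a' b => ?_) (fun a b b' => ?_)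
    (fun c hc => ?_) _ _
  · rw [← hl _ (hs a) _ (hs a') _ (hr' b), h1 _ (mul_mem (hs a) (hs a')) _ (hr' b), hf _ (hs a) _ (hs a'), hs', hs',
      hr'']
  · rw [← hr _ (hs a) _ (hr' b) _ (hr' b'), h1 _ (hs a) _ (mul_mem (hr' b) (hr' b')), hg _ (hr' b) _ (hr' b'), hs',
      hr'', hr'']
  · obtain ⟨n, hn, ε, h2, h3, h4⟩ := inv c hc
    have h5 : ∀ a b, coset(N, ⁅s (ε * (c * a)), r (ε * (c ^ e * b))⁆) = coset(N, ⁅s a, r b⁆) := fun a b => by
      have e1 := h1 _ (h3 _ (hs a)).1 _ (h4 _ (hr' b)).1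
      rw [(h3 _ (hs a)).2, (h4 _ (hr' b)).2, hs', hr''] at e1
      rw [← e1, ← conjugate_commutatorElement]
      exact (key n _ (hXY _ (hs a) _ (hr' b)) (hE n hn _ (hXY _ (hs a) _ (hr' b)))).1
    rcases h2 with rfl | rfl
    · exact Or.inl (by simpa using h5)
    · exact Or.inr (by simpa using h5)

namespace ReD

variable {G : Type*} [Group G] {K : Type*} [Field K] (S : ReD G K)

open Classical in
/-- the coordinates of an element of `U` -/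
noncomputable def co (g : G) : K × K × K :=
  if h : ∃ p : K × K × K, g = S.u p.1 p.2.1 p.2.2 then h.choose else 0

theorem co_u (t a v : K) : S.co (S.u t a v) = (t, a, v) := by
  have h : ∃ p : K × K × K, S.u t a v = S.u p.1 p.2.1 p.2.2 := ⟨(t, a, v), rfl⟩
  rw [co, dif_pos h]
  obtain ⟨h1, h2, h3⟩ := S.u_inj h.choose_spec
  exact Prod.ext h1.symm (Prod.ext h2.symm h3.symm)

/-- the derived group of `U` -/
def U2 : Subgroup G where
  carrier := {g | ∃ a v, g = S.u 0 a v}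
  one_mem' := ⟨0, 0, S.u_zero.symm⟩
  mul_mem' := by
    rintro _ _ ⟨a, v, rfl⟩ ⟨a', v', rfl⟩
    exact ⟨_, _, S.u_mul_av ..⟩
  inv_mem' := by
    rintro _ ⟨a, v, rfl⟩
    exact ⟨_, _, (S.u_inv ..).trans (S.u_congr neg_zero rfl rfl)⟩

/-- the centre of `U` -/
def U3 : Subgroup G where
  carrier := {g | ∃ v, g = S.u 0 0 v}
  one_mem' := ⟨0, S.u_zero.symm⟩
  mul_mem' := by
    rintro _ _ ⟨v, rfl⟩ ⟨v', rfl⟩
    exact ⟨_, S.v_add ..⟩
  inv_mem' := by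
    rintro _ ⟨v, rfl⟩
    exact ⟨_, (S.u_inv ..).trans (S.u_congr neg_zero (by simp) rfl)⟩

theorem U3_le : S.U3 ≤ S.U2 := fun _ ⟨v, h⟩ => ⟨0, v, h⟩

theorem U2_le : S.U2 ≤ S.U := fun _ ⟨a, v, h⟩ => ⟨0, a, v, h⟩

theorem comm_U_U {x y : G} (hx : x ∈ S.U) (hy : y ∈ S.U) : ⁅x, y⁆ ∈ S.U2 := by
  obtain ⟨t, a, v, rfl⟩ := hx
  obtain ⟨t', a', v', rfl⟩ := hy
  simp only [commutatorElement_def, u_inv, S.u_mul]
  exact ⟨_, _, S.u_congr (by ring) rfl rfl⟩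

theorem comm_U_U2 {x y : G} (hx : x ∈ S.U) (hy : y ∈ S.U2) : ⁅x, y⁆ ∈ S.U3 := by
  obtain ⟨t, a, v, rfl⟩ := hx
  obtain ⟨a', v', rfl⟩ := hy
  simp only [commutatorElement_def, u_inv, S.u_mul]
  exact ⟨_, S.u_congr (by ring) (by simp; ring) rfl⟩

theorem comm_U_U3 {x y : G} (hx : x ∈ S.U) (hy : y ∈ S.U3) : ⁅x, y⁆ = 1 := by
  obtain ⟨t, a, v, rfl⟩ := hx
  obtain ⟨v', rfl⟩ := hy
  rw [commutatorElement_eq_one_iff_mul_comm, S.u_mul, S.u_mul]
  exact S.u_congr (by ring) (by ring_nf; simp) (by ring_nf; simp [add_comm])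

theorem comm_U2_U2 {x y : G} (hx : x ∈ S.U2) (hy : y ∈ S.U2) : ⁅x, y⁆ = 1 := by
  obtain ⟨a, v, rfl⟩ := hx
  obtain ⟨a', v', rfl⟩ := hy
  rw [commutatorElement_eq_one_iff_mul_comm, u_mul_av, u_mul_av, add_comm a, add_comm v]

theorem r_bound (hm : 1 ≤ S.m) : 2 * (S.r + 2) + 2 < Nat.card K := by
  have h1 := S.r_sq
  have h2 : 9 ≤ S.r := Nat.pow_le_pow_right (n := 3) (by norm_num) (show 2 ≤ S.m + 1 by omega)
  rw [S.card]
  change _ < S.q
  nlinarith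

theorem exists_h_t {c : K} (hc : c ≠ 0) : ∃ l : Kˣ, (S.σ l)⁻¹ * l ^ 2 = c ∧ S.σ l * (l : K)⁻¹ = c ^ (S.r + 1) ∧
    l = c ^ (S.r + 2) := by
  obtain ⟨l, rfl⟩ := S.exists_χb hc
  have h4 := S.σ_ne l.ne_zero
  have h5 := l.ne_zero
  refine ⟨l, rfl, ?_, ?_⟩ <;> rw [pow_add, ← S.σ_eq, map_mul, map_inv₀, map_pow, S.σσ] <;> field_simp

section Stem
variable {Γ : Type*} [Group Γ] {π : Γ →* G} (hs : Function.Surjective π) (hπ : π.ker ≤ center Γ)
include hs hπ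

theorem commutator_comap_U_le (hm : 1 ≤ S.m) : (∀ x ∈ S.U2.comap π, ∀ y ∈ S.U2.comap π, ⁅x, y⁆ = 1) ∧
    ⁅S.U.comap π, S.U.comap π⁆ ≤ ⁅(S.U2 ⊔ S.T).comap π, (S.U2 ⊔ S.T).comap π⁆ := by
  haveI := S.finiteK
  have hr := S.r_bound hm
  have hr1 : 0 < S.r - 1 := by
    have : 3 ≤ S.r := Nat.pow_le_pow_right (n := 3) (by norm_num) (show 1 ≤ S.m + 1 by omega)
    omega
  have hc : ∀ x, ∀ w ∈ π.ker, ⁅x, w⁆ ∈ (⊥ : Subgroup Γ) := fun x w hw =>
    commutatorElement_eq_one_iff_mul_comm.2 (mem_center_iff.1 (hπ hw) x)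
  have hc' : ∀ x, ∀ w ∈ π.ker, ⁅w, x⁆ ∈ (⊥ : Subgroup Γ) := fun x w hw =>
    commutatorElement_eq_one_iff_mul_comm.2 (mem_center_iff.1 (hπ hw) x).symm
  let f1 : Γ → K := fun x => (S.co (π x)).1
  let f2 : Γ → K := fun x => (S.co (π x)).2.1
  let f3 : Γ → K := fun x => (S.co (π x)).2.2
  have a1 : ∀ x ∈ S.U.comap π, ∀ x' ∈ S.U.comap π, f1 (x * x') = f1 x + f1 x' := by
    rintro x ⟨t, a, v, h⟩ x' ⟨t', a', v', h'⟩
    simp only [f1, map_mul, h, h', S.u_mul, co_u]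
  have a2 : ∀ x ∈ S.U2.comap π, ∀ x' ∈ S.U2.comap π, f2 (x * x') = f2 x + f2 x' := by
    rintro x ⟨a, v, h⟩ x' ⟨a', v', h'⟩
    simp only [f2, map_mul, h, h', u_mul_av, co_u]
  have a3 : ∀ x ∈ S.U3.comap π, ∀ x' ∈ S.U3.comap π, f3 (x * x') = f3 x + f3 x' := by
    rintro x ⟨v, h⟩ x' ⟨v', h'⟩
    simp only [f3, map_mul, h, h', v_add, co_u]
  have s1 : ∀ a, ∃ x ∈ S.U.comap π, f1 x = a := fun a => by
    obtain ⟨x, hx⟩ := hs (S.u a 0 0)
    exact ⟨x, ⟨_, _, _, hx⟩, by simp only [f1, hx, co_u]⟩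
  have s2 : ∀ a, ∃ x ∈ S.U2.comap π, f2 x = a := fun a => by
    obtain ⟨x, hx⟩ := hs (S.u 0 a 0)
    exact ⟨x, ⟨_, _, hx⟩, by simp only [f2, hx, co_u]⟩
  have s3 : ∀ a, ∃ x ∈ S.U3.comap π, f3 x = a := fun a => by
    obtain ⟨x, hx⟩ := hs (S.u 0 0 a)
    exact ⟨x, ⟨_, hx⟩, by simp only [f3, hx, co_u]⟩
  have k1 : ∀ x ∈ S.U.comap π, f1 x = 0 → x ∈ S.U2.comap π := by
    rintro x ⟨t, a, v, h⟩ e
    simp only [f1, h, co_u] at e
    exact ⟨a, v, e ▸ h⟩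
  have k2 : ∀ x ∈ S.U2.comap π, f2 x = 0 → x ∈ S.U3.comap π := by
    rintro x ⟨a, v, h⟩ e
    simp only [f2, h, co_u] at e
    exact ⟨v, e ▸ h⟩
  have k3 : ∀ x ∈ S.U3.comap π, f3 x = 0 → x ∈ π.ker := by
    rintro x ⟨v, h⟩ e
    simp only [f3, h, co_u] at e
    rw [MonoidHom.mem_ker, h, e, u_zero]
  have c1 : ∀ {n l}, π n = S.h l → ∀ x ∈ S.U.comap π, n * x * n⁻¹ ∈ S.U.comap π ∧
      f1 (n * x * n⁻¹) = (S.σ l)⁻¹ * l ^ 2 * f1 x := by
    rintro n l hn x ⟨t, a, v, h⟩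
    simp only [f1, mem_comap, map_mul, map_inv, hn, h, S.h_conj, co_u, S.u_mem, and_self]
  have c2 : ∀ {n l}, π n = S.h l → ∀ x ∈ S.U2.comap π, n * x * n⁻¹ ∈ S.U2.comap π ∧
      f2 (n * x * n⁻¹) = S.σ l * (l : K)⁻¹ * f2 x := by
    rintro n l hn x ⟨a, v, h⟩
    simp only [f2, mem_comap, map_mul, map_inv, hn, h, S.h_conj, co_u, mul_zero, and_true]
    exact ⟨_, _, rfl⟩
  have c3 : ∀ {n l}, π n = S.h l → ∀ x ∈ S.U3.comap π, n * x * n⁻¹ ∈ S.U3.comap π ∧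
      f3 (n * x * n⁻¹) = l * f3 x := by
    rintro n l hn x ⟨v, h⟩
    simp only [f3, mem_comap, map_mul, map_inv, hn, h, h_conj_v, co_u, and_true]
    exact ⟨_, rfl⟩
  have m0 : ∀ {X Y : Subgroup G}, (∀ {x y}, x ∈ X → y ∈ Y → ⁅x, y⁆ = 1) →
      ∀ x ∈ X.comap π, ∀ y ∈ Y.comap π, ⁅x, y⁆ ∈ π.ker := fun h x hx y hy => by
    rw [MonoidHom.mem_ker, map_commutatorElement, h hx hy]
  have hT : ∀ l, ∃ n ∈ S.T.comap π, π n = S.h l := fun l => by
    obtain ⟨n, hn⟩ := hs (S.h l)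
    exact ⟨n, ⟨l, hn.symm⟩, hn⟩
  have t33 := commutator_mem_of_coord (e := 1) one_pos (by omega) (E := S.T.comap π) (norms_bot π.ker)
    (m0 fun hx hy => S.comm_U2_U2 (S.U3_le hx) (S.U3_le hy)) (fun x _ => hc x) (fun x _ => hc x)
    (fun x _ => hc x) f3 f3 a3 a3 s3 s3 (fun x hx h y _ => hc' y x (k3 x hx h))
    (fun y hy h x _ => hc x y (k3 y hy h)) fun c hc => by
      obtain ⟨n, h1, h2⟩ := hT (Units.mk0 c hc)
      exact ⟨n, h1, 1, Or.inl rfl, by simpa using c3 h2, by simpa using c3 h2⟩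
  have t32 := commutator_mem_of_coord (e := S.r - 1) hr1 (by omega) (E := S.T.comap π) (norms_bot π.ker)
    (m0 fun hx hy => S.comm_U2_U2 (S.U3_le hx) hy) (fun x _ => hc x) (fun x _ => hc x)
    (fun x _ => hc x) f3 f2 a3 a2 s3 s2 (fun x hx h y _ => hc' y x (k3 x hx h))
    (fun y hy h x hx => t33 x hx y (k2 y hy h)) fun c hc => by
      obtain ⟨n, h1, h2⟩ := hT (Units.mk0 c hc)
      refine ⟨n, h1, 1, Or.inl rfl, by simpa using c3 h2, ?_⟩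
      rw [pow_sub₀ _ hc (by omega), ← S.σ_eq]
      simpa using c2 h2
  have sw : ∀ {N : Subgroup Γ} {x y : Γ}, ⁅x, y⁆ ∈ N → ⁅y, x⁆ ∈ N := fun h => by
    rw [← commutatorElement_inv]; exact inv_mem h
  have t22 := commutator_mem_of_coord (e := 1) one_pos (by omega) (E := S.T.comap π) (norms_bot π.ker)
    (m0 S.comm_U2_U2) (fun x _ => hc x) (fun x _ => hc x)
    (fun x _ => hc x) f2 f2 a2 a2 s2 s2 (fun x hx h y hy => t32 x (k2 x hx h) y hy)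
    (fun y hy h x hx => sw (t32 y (k2 y hy h) x hx)) fun c hc => by
      obtain ⟨l, hl⟩ := S.exists_χu hc
      obtain ⟨n, h1, h2⟩ := hT l
      have h3 := c2 h2
      rcases hl with hl | hl <;> rw [hl] at h3
      · exact ⟨n, h1, 1, Or.inl rfl, by simpa using h3, by simpa using h3⟩
      · exact ⟨n, h1, -1, Or.inr rfl, by simpa using h3, by simpa using h3⟩
  have t13 := commutator_mem_of_coord (e := S.r + 2) (by omega) (by omega) (E := S.T.comap π) (norms_bot π.ker)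
    (m0 S.comm_U_U3) (fun x _ => hc x) (fun x _ => hc x)
    (fun x _ => hc x) f1 f3 a1 a3 s1 s3 (fun x hx h y hy => t22 x (k1 x hx h) y (S.U3_le hy))
    (fun y hy h x _ => hc x y (k3 y hy h)) fun c hc => by
      obtain ⟨l, e1, -, e3⟩ := S.exists_h_t hc
      obtain ⟨n, h1, h2⟩ := hT l
      exact ⟨n, h1, 1, Or.inl rfl, by simpa [e1] using c1 h2, by simpa [← e3] using c3 h2⟩
  refine ⟨t22, commutator_le.2 ?_⟩
  set H := (S.U2 ⊔ S.T).comap π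
  have l2 : S.U2.comap π ≤ H := comap_mono le_sup_left
  have lT : ∀ x ∈ S.T.comap π, ∀ w ∈ S.U2.comap π, ⁅x, w⁆ ∈ ⁅H, H⁆ := fun x hx w hw =>
    commutator_mem_commutator (comap_mono le_sup_right hx) (l2 hw)
  have b : ∀ {x : Γ}, x ∈ (⊥ : Subgroup Γ) → x ∈ ⁅H, H⁆ := fun h => bot_le (a := ⁅H, H⁆) h
  have t12 := commutator_mem_of_coord (e := S.r + 1) (by omega) (by omega) (E := S.T.comap π)
    (W := S.U3.comap π) (N := ⁅H, H⁆) ((comap_mono S.U3_le).trans (l2.trans (der_nml H).nrm))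
    (fun x hx y hy => by rw [mem_comap, map_commutatorElement]; exact S.comm_U_U2 hx hy)
    (fun x hx w hw => b (t13 x hx w hw)) (fun x hx w hw => b (t13 x (S.U2_le hx) w hw))
    (fun x hx w hw => lT x hx w (S.U3_le hw)) f1 f2 a1 a2 s1 s2 (fun x hx h y hy => b (t22 x (k1 x hx h) y hy))
    (fun y hy h x hx => b (t13 x hx y (k2 y hy h))) fun c hc => by
      obtain ⟨l, e1, e2, -⟩ := S.exists_h_t hc
      obtain ⟨n, h1, h2⟩ := hT l
      exact ⟨n, h1, 1, Or.inl rfl, by simpa [e1] using c1 h2, by simpa [e2] using c2 h2⟩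
  exact commutator_mem_of_coord (e := 1) one_pos (by omega) (E := S.T.comap π)
    (W := S.U2.comap π) (l2.trans (der_nml H).nrm)
    (fun x hx y hy => by rw [mem_comap, map_commutatorElement]; exact S.comm_U_U hx hy)
    t12 t12 lT f1 f1 a1 a1 s1 s1 (fun x hx h y hy => sw (t12 y hy x (k1 x hx h)))
    (fun y hy h x hx => t12 x hx y (k1 y hy h)) fun c hc => by
      obtain ⟨l, e1, -⟩ := S.exists_h_t hc
      obtain ⟨n, h1, h2⟩ := hT l
      exact ⟨n, h1, 1, Or.inl rfl, by simpa [e1] using c1 h2, by simpa [e1] using c1 h2⟩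

theorem eq_one_of_mem_commutator_comap_U [Finite Γ] (hm : 1 ≤ S.m) {a : Γ} (ha : a ∈ π.ker)
    (h : a ∈ ⁅S.U.comap π, S.U.comap π⁆) (h3 : a ^ 3 = 1) : a = 1 := by
  haveI := S.finiteG
  obtain ⟨h1, h2⟩ := S.commutator_comap_U_le hs hπ hm
  set H := (S.U2 ⊔ S.T).comap π
  have h4 : a ∈ H := der_le H (h2 h)
  have h5 := pow_index_mem_commutator ((S.U2.comap π).subgroupOf H) (a := ⟨a, h4⟩)
    (mem_center_iff.2 fun g => Subtype.ext (mem_center_iff.1 (hπ ha) g)) (by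
      have := h2 h
      rw [← map_subtype_commutator] at this
      obtain ⟨x, hx, rfl⟩ := this
      exact hx)
  rw [show ⁅(S.U2.comap π).subgroupOf H, (S.U2.comap π).subgroupOf H⁆ = ⊥ from
    eq_bot_iff.2 (commutator_le.2 fun x hx y hy => Subtype.ext (h1 x hx y hy)), mem_bot] at h5
  have h6 : ((S.U2.comap π).subgroupOf H).index ∣ S.q - 1 := by
    change (S.U2.comap π).relIndex H ∣ _
    rw [relIndex_comap, map_comap_eq_self_of_surjective hs, relIndex_sup_norm (fun x hx => ?_), ← S.card_T]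
    · exact relIndex_dvd_card _ _
    · obtain ⟨l, rfl⟩ := hx
      refine mem_nrm.2 ?_
      rintro _ ⟨a, v, rfl⟩
      exact ⟨_, _, (S.h_conj ..).trans (S.u_congr (mul_zero _) rfl rfl)⟩
  have h7 : orderOf a ∣ S.q - 1 := (orderOf_dvd_of_pow_eq_one (congrArg Subtype.val h5)).trans h6
  refine orderOf_eq_one_iff.1 (Nat.eq_one_of_dvd_coprimes ?_ (orderOf_dvd_of_pow_eq_one h3) h7)
  have := S.three_dvd_q
  have := S.three_le_q
  exact (Nat.prime_three.coprime_iff_not_dvd).2 (by omega)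

include S in
theorem comm_of_mem_comap_sylow (P : Sylow 2 G) {x y : Γ} (hx : π x ∈ P) (hy : π y ∈ P) : ⁅x, y⁆ = 1 := by
  obtain ⟨N⟩ := S.nonempty_NT
  obtain ⟨z, hz⟩ := hs S.z
  obtain ⟨t, ht⟩ := hs N.t
  have hc : ∀ x y : Γ, π x * π y = π y * π x → ⁅x, y⁆ ∈ center Γ := fun x y h => hπ (by
    rw [MonoidHom.mem_ker, map_commutatorElement, commutatorElement_eq_one_iff_mul_comm, h])
  have hcj : ∀ k x y : Γ, π x * π y = π y * π x → ⁅k * x * k⁻¹, k * y * k⁻¹⁆ = ⁅x, y⁆ := fun k x y h => by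
    rw [← conjugate_commutatorElement, mem_center_iff.1 (hc x y h), mul_inv_cancel_right]
  have hr : ∀ x y y' : Γ, π x * π y' = π y' * π x → ⁅x, y * y'⁆ = ⁅x, y⁆ * ⁅x, y'⁆ := fun x y y' h => by
    calc ⁅x, y * y'⁆ = ⁅x, y⁆ * (y * ⁅x, y'⁆ * y⁻¹) := by simp only [commutatorElement_def]; group
      _ = _ := by rw [mem_center_iff.1 (hc x y' h), mul_inv_cancel_right]
  have h1 : ∀ p : Γ, π p ≠ 1 → π p * π p = 1 → π p ≠ S.z → S.z * π p = π p * S.z → ⁅z, p⁆ = ⁅z, t⁆ :=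
    fun p e1 e2 e3 e4 => by
    obtain ⟨k, hk, e⟩ := N.exists_conj_t e1 e2 e3 e4
    obtain ⟨k, rfl⟩ := hs k
    have e5 : π (k * z * k⁻¹) = π z := by rw [map_mul, map_mul, map_inv, hz, ← hk, mul_inv_cancel_right]
    rcases e with e | e
    · rw [← hcj k z p (by rwa [hz])]
      exact commutatorElement_eq_of_ker_le hπ e5 (by rw [map_mul, map_mul, map_inv, e, ht])
    · have e6 := hr z p z rfl
      rw [commutatorElement_self, mul_one] at e6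
      rw [← e6, ← hcj k z (p * z) (by rw [map_mul, hz, ← mul_assoc, e4])]
      exact commutatorElement_eq_of_ker_le hπ e5 (by rw [map_mul, map_mul, map_inv, map_mul, hz, e, ht])
  have h2 : ⁅z, t⁆ = 1 := by
    obtain ⟨s, hs'⟩ := hs N.s
    have e1 := h1 s (fun e => N.s_not_mem (by rw [← hs', e]; exact one_mem _)) (by rw [hs', N.ss])
      (fun e => N.s_not_mem (by rw [← hs', e]; exact N.z_mem)) (by rw [hs', N.z_s])
    have e0 : N.t * N.s ∉ N.W := fun h => N.s_not_mem ((mul_mem_cancel_left N.t_mem).1 h)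
    have e2 := h1 (t * s) (fun e => e0 (by rw [← ht, ← hs', ← map_mul, e]; exact one_mem _))
      (by rw [map_mul, ht, hs']; exact N.sq_of_mul_s (by rw [mul_assoc, N.ss, mul_one]; exact N.t_mem))
      (fun e => e0 (by rw [← ht, ← hs', ← map_mul, e]; exact N.z_mem))
      (by rw [map_mul, ht, hs', ← mul_assoc, N.z_t, mul_assoc, N.z_s, mul_assoc])
    rw [hr z t s (by rw [hz, hs', N.z_s]), e1] at e2
    exact mul_eq_left.1 e2
  have h3 := S.comm_of_isPGroup P.2 hx hy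
  by_cases e1 : π x = 1
  · exact commutatorElement_eq_one_iff_mul_comm.2 (mem_center_iff.1 (hπ e1) y).symm
  by_cases e2 : π y = 1
  · exact commutatorElement_eq_one_iff_mul_comm.2 (mem_center_iff.1 (hπ e2) x)
  by_cases e3 : π y = π x
  · rw [commutatorElement_eq_of_ker_le hπ rfl e3, commutatorElement_self]
  obtain ⟨k, hk⟩ := S.exists_conj_z e1 (S.sq_eq_one_of_isPGroup P.2 hx)
  obtain ⟨k, rfl⟩ := hs k
  have e4 : π (k⁻¹ * x * k⁻¹⁻¹) = S.z := by rw [map_mul, map_mul, hk, inv_inv, map_inv]; group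
  rw [← hcj k⁻¹ x y h3, commutatorElement_eq_of_ker_le hπ (e4.trans hz.symm) rfl, h1, h2]
  · rw [map_mul, map_mul, map_inv π k⁻¹]
    exact conj_ne_one _ e2
  · rw [map_mul, map_mul, map_inv π k⁻¹]
    exact conj_mul_self_eq_one.2 (S.sq_eq_one_of_isPGroup P.2 hy)
  · rw [← e4]; simpa using e3
  · rw [← e4]
    simp only [map_mul, map_inv π k⁻¹, conj_mul, h3]

end Stem

theorem ker_eq_bot_of_stem (hm : 1 ≤ S.m) {Γ : Type*} [Group Γ] [Finite Γ] (π : Γ →* G)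
    (hπ : Cfsg.IsStemExtension π) : π.ker = ⊥ := by
  haveI := S.finiteG
  refine ker_eq_bot_of_forall_prime hπ fun p hp => ?_
  haveI : Fact p.Prime := ⟨hp⟩
  by_cases h3 : p = 3
  · subst h3
    exact ⟨S.U, S.split.not_dvd_index S.isPGroup_U S.U_ne_bot S.zero_ne_inf S.not_three_dvd, fun a ha h h' =>
      S.eq_one_of_mem_commutator_comap_U hπ.1 hπ.2.1 hm ha h h'⟩
  obtain ⟨P⟩ : Nonempty (Sylow p G) := inferInstance
  refine ⟨P, P.not_dvd_index, fun a _ h _ => ?_⟩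
  by_cases h2 : p = 2
  · subst h2
    exact (commutator_le (H₃ := ⊥)).2 (fun x hx y hy => S.comm_of_mem_comap_sylow hπ.1 hπ.2.1 P hx hy) h
  · rwa [commutator_comap_eq_bot_of_isCyclic hπ.2.1 (S.isCyclic_of_isPGroup hm hp h2 h3 P.isPGroup'), mem_bot] at h

end ReD

end Cfsg.Agent.H13
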