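import Mathlib

/-! Eigenspace counting and an abstract commutator-form lemma. -/

set_option autoImplicit false

namespace Cfsg.Agent.H13.XE

open Module Polynomial

section Lin
variable {F : Type*} [Field F] {V : Type*} [AddCommGroup V] [Module F V] [FiniteDimensional F V]

theorem finrank_eq_inf_add_map (f : End F V) (S : Submodule F V) :
    finrank F S = finrank F ↥(S ⊓ LinearMap.ker f) + finrank F ↥(S.map f) := by
  have h := LinearMap.finrank_range_add_finrank_ker (f.domRestrict S)
  rw [LinearMap.range_domRestrict, LinearMap.ker_domRestrict] at h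
  have h2 := Submodule.finrank_map_subtype_eq S ((LinearMap.ker f).comap S.subtype)
  rw [Submodule.map_comap_subtype] at h2
  omega

theorem finrank_le_sum_roots (u : End F V) (s : Finset F) (S : Submodule F V)
    (hS : ∀ v ∈ S, u v ∈ S) (h : ∀ v ∈ S, aeval u (∏ θ ∈ s, (X - C θ)) v = 0) :
    finrank F S ≤ ∑ θ ∈ s, finrank F ↥(S ⊓ u.eigenspace θ) := by
  classical
  induction s using Finset.induction_on generalizing S with
  | empty =>
    have : S = ⊥ := by
      rw [eq_bot_iff]; intro v hv; simpa using h v hv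
    subst this; simp
  | insert θ s hθ ih =>
    rw [Finset.sum_insert hθ]
    set f : End F V := u - algebraMap F (End F V) θ with hf
    have hker : LinearMap.ker f = u.eigenspace θ := by
      ext v; simp [hf, End.mem_eigenspace_iff, sub_eq_zero, Module.algebraMap_end_apply]
    have hle : S.map f ≤ S := by
      rintro _ ⟨v, hv, rfl⟩
      simp only [hf, LinearMap.sub_apply, Module.algebraMap_end_apply]
      exact S.sub_mem (hS v hv) (S.smul_mem _ hv)
    have h1 := ih (S.map f) (by
      rintro _ ⟨v, hv, rfl⟩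
      refine ⟨u v, hS v hv, ?_⟩
      simp [hf, Module.algebraMap_end_apply]) (by
      rintro _ ⟨v, hv, rfl⟩
      have := h v hv
      rw [Finset.prod_insert hθ, mul_comm, map_mul] at this
      simpa [hf] using this)
    rw [finrank_eq_inf_add_map f S, hker]
    refine Nat.add_le_add_left (h1.trans (Finset.sum_le_sum fun a _ => ?_)) _
    exact Submodule.finrank_mono (inf_le_inf_right _ hle)

theorem sum_finrank_eig_le (x : End F V) {κ : Type*} (s : Finset κ) (θ : κ → F)
    (hθ : Set.InjOn θ s) (T : κ → Submodule F V) (hT : ∀ i ∈ s, T i ≤ x.eigenspace (θ i))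
    (S : Submodule F V) (hS : ∀ i ∈ s, T i ≤ S) :
    ∑ i ∈ s, finrank F (T i) ≤ finrank F S := by
  classical
  suffices h : ∑ i ∈ s, finrank F (T i) ≤ finrank F ↥(s.sup T) from
    h.trans (Submodule.finrank_mono (Finset.sup_le hS))
  clear hS
  induction s using Finset.induction_on with
  | empty => simp
  | insert j s hj ih =>
    rw [Finset.sum_insert hj, Finset.sup_insert]
    have ih' := ih (hθ.mono (by simp)) fun i hi => hT i (Finset.mem_insert_of_mem hi)
    have hd : T j ⊓ s.sup T = ⊥ := by
      have h1 := x.eigenspaces_iSupIndep (θ j)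
      rw [← disjoint_iff]
      refine h1.mono (hT j (by simp)) (Finset.sup_le fun i hi => ?_)
      refine (hT i (Finset.mem_insert_of_mem hi)).trans ?_
      refine le_iSup₂_of_le (f := fun μ (_ : μ ≠ θ j) => x.eigenspace μ) (θ i) ?_ le_rfl
      intro h
      have := hθ (by simp [hi]) (by simp) h
      exact hj (this ▸ hi)
    have := Submodule.finrank_sup_add_finrank_inf_eq (T j) (s.sup T)
    rw [hd, finrank_bot] at this
    omega

/-- conjugate operators have eigenspaces of the same dimension -/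
theorem finrank_eig_le_of_conj {x y e : End F V} (he : Function.Injective e) {a b : F}
    (h : ∀ v, x v = a • v → y (e v) = b • e v) :
    finrank F (x.eigenspace a) ≤ finrank F (y.eigenspace b) := by
  rw [LinearEquiv.finrank_eq (Submodule.equivMapOfInjective e he (x.eigenspace a))]
  refine Submodule.finrank_mono ?_
  rintro _ ⟨v, hv, rfl⟩
  exact End.mem_eigenspace_iff.2 (h v (End.mem_eigenspace_iff.1 hv))

/-- `e x = ω x e` with `ω` of order `r`: eigenspaces have dimension at most `n / r` -/
theorem mul_finrank_eig_le {x e : End F V} (he : Function.Injective e) {ω : F} {r : ℕ}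
    (hω : IsPrimitiveRoot ω r) (h : ∀ v, x (e v) = ω • e (x v)) {c : F} (hc : c ≠ 0) :
    r * finrank F (x.eigenspace c) ≤ finrank F V := by
  have h1 : ∀ i : ℕ, finrank F (x.eigenspace c) ≤ finrank F (x.eigenspace (ω ^ i * c)) := by
    intro i
    induction i with
    | zero => rw [pow_zero, one_mul]
    | succ i ih =>
      refine ih.trans (finrank_eig_le_of_conj he fun v hv => ?_)
      rw [h, hv, map_smul, smul_smul, pow_succ', mul_assoc]
  have h2 := sum_finrank_eig_le x (Finset.range r) (fun i => ω ^ i * c) (by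
    intro i hi j hj hij
    exact hω.pow_inj (by simpa using hi) (by simpa using hj) (mul_right_cancel₀ hc hij))
    (fun i => x.eigenspace (ω ^ i * c)) (fun _ _ => le_rfl) ⊤ (fun _ _ => le_top)
  rw [finrank_top] at h2
  refine le_trans ?_ h2
  calc r * finrank F (x.eigenspace c) = ∑ _i ∈ Finset.range r, finrank F (x.eigenspace c) := by simp
    _ ≤ _ := Finset.sum_le_sum fun i _ => h1 i

end Lin

section Form
variable {M A : Type*} [Group M] [CommGroup A] (B : M →* M →* A) (σ : M ≃* M)

/-- `σ(e) e⁻¹` -/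
def uu (σ : M ≃* M) (e : M) : M := σ e * e⁻¹

variable {B σ}

theorem B_uu (e y : M) : B (uu σ e) y = B (σ e) y * (B e y)⁻¹ := by simp [uu]

theorem B_uu' (e y : M) : B y (uu σ e) = B y (σ e) * (B y e)⁻¹ := by simp [uu]

theorem σ_uu (e : M) : σ (uu σ e) = uu σ (σ e) := by simp [uu]

theorem cube_trivial (hanti : ∀ x y, B x y * B y x = 1) (hinv : ∀ x y, B (σ x) (σ y) = B x y)
    {k : ℕ} (hσ : σ ^ (2 * k + 1) = 1) (h : ∀ e, B (uu σ e) (σ (uu σ e)) = 1) (e y : M) :
    B (uu σ (uu σ (uu σ e))) y = 1 := by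
  have hmul : ∀ a b z, B (uu σ (a * b)) z = B (uu σ a) z * B (uu σ b) z := by
    intro a b z
    simp only [B_uu, map_mul, MonoidHom.mul_apply, mul_inv]
    ac_rfl
  have hanti' : ∀ x y, B x y = (B y x)⁻¹ := fun x y => eq_inv_of_mul_eq_one_left (hanti x y)
  have hmul' : ∀ a b z, B z (uu σ (a * b)) = B z (uu σ a) * B z (uu σ b) := by
    intro a b z
    simp only [B_uu', map_mul, mul_inv]
    ac_rfl
  -- polarisation
  have h1 : ∀ a b, B (uu σ a) (σ (uu σ b)) = B (σ (uu σ a)) (uu σ b) := by
    intro a b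
    have h0 := h (a * b)
    rw [σ_uu, map_mul, hmul, hmul', hmul', ← σ_uu, ← σ_uu, h, h, one_mul, mul_one] at h0
    rw [hanti' (σ (uu σ a)), eq_inv_of_mul_eq_one_left h0]
  have h2 : ∀ a b, B (uu σ a) (σ (σ (uu σ b))) = B (uu σ a) (uu σ b) := by
    intro a b
    rw [σ_uu b, h1, ← σ_uu, hinv]
  have h3 : ∀ (j : ℕ) a b, B (uu σ a) ((σ ^ (2 * j)) (uu σ b)) = B (uu σ a) (uu σ b) := by
    intro j
    induction j with
    | zero => simp
    | succ j ih =>
      intro a b
      have e1 : ∀ (j : ℕ) b, (σ ^ j) (uu σ b) = uu σ ((σ ^ j) b) := by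
        intro j b
        simp only [uu, map_mul, map_inv]
        rw [← MulAut.mul_apply, ← MulAut.mul_apply, (Commute.self_pow σ j).eq]
      rw [mul_add, mul_one, add_comm, pow_add, MulAut.mul_apply, sq, MulAut.mul_apply, e1, h2,
        ← e1, ih]
  have h4 : ∀ a b, B (uu σ a) (σ (uu σ b)) = B (uu σ a) (uu σ b) := by
    intro a b
    have := h3 (k + 1) a b
    rwa [show 2 * (k + 1) = (2 * k + 1) + 1 by ring, pow_succ', hσ, mul_one] at this
  have h5 : ∀ a b, B (uu σ a) (uu σ (uu σ b)) = 1 := by
    intro a b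
    rw [B_uu', h4, mul_inv_cancel]
  -- `w = uu (uu e)` is fixed
  obtain ⟨a, rfl⟩ := σ.surjective y
  have h6 := h5 a e
  rw [B_uu, mul_inv_eq_one] at h6
  rw [B_uu, hinv, hanti' _ a, hanti' _ (σ a), h6, mul_inv_cancel]

theorem pow_trivial (hinv : ∀ x y, B (σ x) (σ y) = B x y) {m : ℕ} (hσ : σ ^ m = 1) {f : M}
    (h : ∀ y, B (uu σ (uu σ f)) y = 1) (y : M) : B (uu σ f) y ^ m = 1 := by
  have h1 : ∀ y, B (σ (uu σ f)) y = B (uu σ f) y := fun y => by
    have := h y
    rwa [B_uu, mul_inv_eq_one] at this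
  have h2 : ∀ y, B (uu σ f) (σ y) = B (uu σ f) y := fun y => by rw [← h1, hinv]
  have h3 : ∀ (j : ℕ) y, B f ((σ ^ j) y) * B (uu σ f) y ^ j = B f y := by
    intro j
    induction j with
    | zero => simp
    | succ j ih =>
      intro y
      have h4 := B_uu (B := B) (σ := σ) f (σ y)
      rw [hinv, h2] at h4
      rw [pow_succ, MulAut.mul_apply, pow_succ, ← mul_assoc, ← h2 y, ih, h2, h4]
      simp [mul_comm]
  have := h3 m y
  rw [hσ] at this
  simpa using this

end Form

end Cfsg.Agent.H13.XE
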