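import Mathlib
import Cfsg.Agent.H13.XE1
import Cfsg.Agent.H26.RType

/-! Commutator forms on projectively abelian matrix groups. -/

set_option autoImplicit false

namespace Cfsg.Agent.H13.XE

open Module Polynomial Cfsg.Geo
open scoped commutatorElement MatrixGroups

section Lin
variable {F : Type*} [Field F] {V : Type*} [AddCommGroup V] [Module F V] [FiniteDimensional F V]

theorem pair_le (x : End F V) {a b : F} (hab : a ≠ b) {S T U : Submodule F V}
    (hS : S ≤ x.eigenspace a) (hT : T ≤ x.eigenspace b) (hSU : S ≤ U) (hTU : T ≤ U) :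
    finrank F S + finrank F T ≤ finrank F U := by
  have hd : S ⊓ T = ⊥ := by
    rw [eq_bot_iff]
    intro v hv
    have h1 := End.mem_eigenspace_iff.1 (hS hv.1)
    have h2 := End.mem_eigenspace_iff.1 (hT hv.2)
    have : (a - b) • v = 0 := by rw [sub_smul, ← h1, ← h2, sub_self]
    simpa [sub_eq_zero, hab] using this
  have := Submodule.finrank_sup_add_finrank_inf_eq S T
  rw [hd, finrank_bot] at this
  have h2 : finrank F ↥(S ⊔ T) ≤ finrank F U := Submodule.finrank_mono (sup_le hSU hTU)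
  omega

theorem four_count {g w e : End F V} (he : Function.Injective e) (hwg : w * g = g * w)
    (heg : e * g = w * g * e) {μ ω : F} (hew : e * w = μ • (w * e)) {r : ℕ} (hr : r.Prime)
    (h5 : 5 ≤ r) (hw : w ^ r = 1) (hω : IsPrimitiveRoot ω r) (hμ : μ ^ r = 1)
    (hd : ∀ a : F, a ≠ 0 → r * finrank F (w.eigenspace a) ≤ finrank F V) {c : F} (hc : c ≠ 0) :
    2 * finrank F (g.eigenspace c) ≤ finrank F V := by
  classical
  obtain ⟨x, hx⟩ : ∃ x : ℕ → End F V, ∀ i, x i = μ ^ (i.choose 2) • (w ^ i * g) := ⟨_, fun _ => rfl⟩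
  have hewi : ∀ i : ℕ, e * w ^ i = μ ^ i • (w ^ i * e) := by
    intro i
    induction i with
    | zero => simp
    | succ i ih =>
      rw [pow_succ, ← mul_assoc, ih, smul_mul_assoc, mul_assoc, hew, mul_smul_comm, smul_smul,
        ← mul_assoc, ← pow_succ]
  have hex : ∀ i, e * x i = x (i + 1) * e := by
    intro i
    rw [hx, hx, mul_smul_comm, ← mul_assoc, hewi, smul_mul_assoc, mul_assoc, heg, smul_smul, ← pow_add,
      Nat.choose_succ_succ, Nat.choose_one_right, add_comm i, smul_mul_assoc, pow_succ]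
    simp only [mul_assoc]
  have hk : ∀ i, finrank F (g.eigenspace c) ≤ finrank F ((x i).eigenspace c) := by
    intro i
    induction i with
    | zero => rw [hx, show Nat.choose 0 2 = 0 from rfl, pow_zero, pow_zero, one_mul, one_smul]
    | succ i ih =>
      refine ih.trans (finrank_eig_le_of_conj he fun v hv => ?_)
      rw [← End.mul_apply, ← hex, End.mul_apply, hv, map_smul]
  set s := nthRootsFinset r (1 : F) with hs
  have hmem : ∀ a ∈ s, a ^ r = 1 := fun a ha => (mem_nthRootsFinset hr.pos _).1 ha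
  have hne : ∀ a : F, a ^ r = 1 → a ≠ 0 := by
    rintro a ha rfl
    rw [zero_pow hr.ne_zero] at ha
    exact zero_ne_one ha
  have hprim : ∀ a : F, a ^ r = 1 → a ≠ 1 → IsPrimitiveRoot a r := by
    intro a ha h1
    haveI := Fact.mk hr
    rw [← orderOf_eq_prime ha h1]
    exact IsPrimitiveRoot.orderOf a
  obtain ⟨T, hTd⟩ : ∃ T : ℕ → F → Submodule F V, ∀ i a,
      T i a = (x i).eigenspace c ⊓ w.eigenspace a := ⟨_, fun _ _ => rfl⟩
  have hTw : ∀ i a, T i a ≤ w.eigenspace a := fun i a => by rw [hTd]; exact inf_le_right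
  have hsum : ∀ i, finrank F (g.eigenspace c) ≤ ∑ a ∈ s, finrank F (T i a) := by
    intro i
    rw [Finset.sum_congr rfl fun a _ => congrArg (fun S : Submodule F V => finrank F S) (hTd i a)]
    refine (hk i).trans (finrank_le_sum_roots w s _ ?_ ?_)
    · intro v hv
      rw [End.mem_eigenspace_iff] at hv ⊢
      have : x i * w = w * x i := by
        rw [hx, smul_mul_assoc, mul_smul_comm, mul_assoc, ← hwg, ← mul_assoc, ← mul_assoc,
          ← pow_succ, ← pow_succ']
      rw [← End.mul_apply, this, End.mul_apply, hv, map_smul]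
    · intro v _
      rw [hs, ← X_pow_sub_one_eq_prod hr.pos hω]
      simp [hw]
  have hT : ∀ i, ∀ a ∈ s, T i a ≤ g.eigenspace (c * (μ ^ (i.choose 2) * a ^ i)⁻¹) := by
    intro i a ha v hv
    rw [hTd] at hv
    obtain ⟨h1, h2⟩ := hv
    rw [SetLike.mem_coe, End.mem_eigenspace_iff] at h1 h2
    rw [End.mem_eigenspace_iff]
    have h3 : (w ^ i) v = a ^ i • v := by
      clear h1
      induction i with
      | zero => simp
      | succ i ih => rw [pow_succ, End.mul_apply, h2, map_smul, ih, smul_smul, ← pow_succ']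
    have h4 : w ^ i * g = g * w ^ i := (Commute.pow_left hwg i)
    rw [hx, h4, LinearMap.smul_apply, End.mul_apply, h3, map_smul, smul_smul] at h1
    have h0 : μ ^ (i.choose 2) * a ^ i ≠ 0 :=
      mul_ne_zero (pow_ne_zero _ (hne _ hμ)) (pow_ne_zero _ (hne _ (hmem a ha)))
    rw [mul_comm c, mul_smul, ← h1, smul_smul, inv_mul_cancel₀ h0, one_smul]
  have hdsum : ∑ a ∈ s, finrank F (w.eigenspace a) ≤ finrank F V := by
    have := sum_finrank_eig_le w s id (fun _ _ _ _ h => h) (fun a => w.eigenspace a)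
      (fun _ _ => le_rfl) ⊤ (fun _ _ => le_top)
    rwa [finrank_top] at this
  have h4 : 4 * finrank F (g.eigenspace c) ≤
      ∑ a ∈ s, ∑ i ∈ Finset.range 4, finrank F (T i a) := by
    rw [Finset.sum_comm]
    calc 4 * finrank F (g.eigenspace c) = ∑ _i ∈ Finset.range 4, finrank F (g.eigenspace c) := by
          simp
      _ ≤ _ := Finset.sum_le_sum fun i _ => hsum i
  have hinj : ∀ {a b : F}, a ≠ b → c * a⁻¹ ≠ c * b⁻¹ := fun hab h =>
    hab (inv_injective (mul_left_cancel₀ hc h))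
  by_cases hμ1 : μ = 1
  · have h1s : (1 : F) ∈ s := (mem_nthRootsFinset hr.pos _).2 (one_pow _)
    have hb : ∀ a ∈ s, ∑ i ∈ Finset.range 4, finrank F (T i a) ≤
        finrank F (w.eigenspace a) + if a = 1 then 3 * finrank F (w.eigenspace a) else 0 := by
      intro a ha
      split_ifs with h1
      · have ht : ∀ i, finrank F (T i a) ≤ finrank F (w.eigenspace a) := fun i =>
          Submodule.finrank_mono (hTw i a)
        simp only [Finset.sum_range_succ, Finset.sum_range_zero]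
        have := ht 0; have := ht 1; have := ht 2; have := ht 3
        omega
      · rw [add_zero]
        refine sum_finrank_eig_le g (Finset.range 4) (fun i => c * (μ ^ (i.choose 2) * a ^ i)⁻¹) ?_
          (fun i => T i a) (fun i _ => hT i a ha) _ (fun i _ => hTw i a)
        intro i hi j hj hij
        by_contra hne'
        refine hinj ?_ hij
        rw [hμ1, one_pow, one_pow, one_mul, one_mul]
        intro h
        refine hne' ((hprim a (hmem a ha) h1).pow_inj ?_ ?_ h)
        · have : i < 4 := by simpa using hi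
          omega
        · have : j < 4 := by simpa using hj
          omega
    have h6 := (Finset.sum_le_sum hb)
    rw [Finset.sum_add_distrib, Finset.sum_ite_eq' s 1, if_pos h1s] at h6
    have h7 := hd 1 one_ne_zero
    have h8 : 5 * finrank F (w.eigenspace 1) ≤ r * finrank F (w.eigenspace 1) :=
      Nat.mul_le_mul_right _ h5
    omega
  · have hμp := hprim μ hμ hμ1
    have hμ0 := hne μ hμ
    have hμ3 : μ ^ 3 ≠ 1 := hμp.pow_ne_one_of_pos_of_lt (by norm_num) (by omega)
    have hb : ∀ a ∈ s, ∑ i ∈ Finset.range 4, finrank F (T i a) ≤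
        2 * finrank F (w.eigenspace a) := by
      intro a ha
      have ha0 := hne a (hmem a ha)
      have hp : ∀ i j : ℕ, μ ^ (i.choose 2) * a ^ i ≠ μ ^ (j.choose 2) * a ^ j →
          finrank F (T i a) + finrank F (T j a) ≤ finrank F (w.eigenspace a) := fun i j hij =>
        pair_le g (hinj hij) (hT i a ha) (hT j a ha) (hTw i a) (hTw j a)
      simp only [Finset.sum_range_succ, Finset.sum_range_zero]
      by_cases h : a ≠ 1 ∧ μ ^ 2 * a ≠ 1
      · have h1 := hp 0 1 (by simpa using h.1.symm)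
        have h2 := hp 2 3 (by
          intro h'
          apply h.2
          have h0 : μ * a ^ 2 ≠ 0 := mul_ne_zero hμ0 (pow_ne_zero _ ha0)
          apply mul_left_cancel₀ h0
          simp only [Nat.choose] at h'
          linear_combination -h')
        omega
      · have h' : a = 1 ∨ μ ^ 2 * a = 1 := by tauto
        have h1 := hp 0 2 (by
          intro h''
          simp only [Nat.choose] at h''
          rcases h' with h' | h'
          · apply hμ1; rw [h'] at h''; linear_combination -h''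
          · apply hμ3; linear_combination μ ^ 3 * h'' + (μ ^ 2 * a + 1) * h')
        have h2 := hp 1 3 (by
          intro h''
          simp only [Nat.choose] at h''
          rcases h' with h' | h'
          · apply hμ3; rw [h'] at h''; linear_combination -h''
          · apply hμ1
            apply mul_left_cancel₀ ha0
            linear_combination μ * h'' + a * (μ ^ 2 * a + 1) * h')
        omega
    have h6 := (Finset.sum_le_sum hb)
    rw [← Finset.mul_sum] at h6
    omega

end Lin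

section Mat
variable {ι : Type} [Fintype ι] [DecidableEq ι] {F : Type*} [Field F]

/-- scalar matrices -/
def sc (ι : Type) [Fintype ι] [DecidableEq ι] {F : Type*} [Field F] : Fˣ →* GL ι F :=
  Units.map (Matrix.scalar ι : F →+* Matrix ι ι F).toMonoidHom

theorem sc_coe (z : Fˣ) : ((sc ι z : GL ι F) : Matrix ι ι F) = (z : F) • (1 : Matrix ι ι F) := by
  simp [sc, Matrix.smul_one_eq_diagonal]

theorem sc_mem (z : Fˣ) : sc ι z ∈ scalars ι F := ⟨z, rfl⟩

theorem mem_scalars {x : GL ι F} : x ∈ scalars ι F ↔ ∃ z, sc ι z = x := Iff.rfl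

theorem sc_comm (z : Fˣ) (x : GL ι F) : sc ι z * x = x * sc ι z :=
  Units.ext (by simp [sc_coe])

theorem sc_inj [Nonempty ι] : Function.Injective (sc ι : Fˣ → GL ι F) := by
  intro a b h
  have := congrArg (fun x : GL ι F => (x : Matrix ι ι F) (Classical.arbitrary ι) (Classical.arbitrary ι)) h
  simp only [sc_coe] at this
  exact Units.ext (by simpa using this)

/-- the action on column vectors -/
def ρ : GL ι F →* End F (ι → F) where
  toFun x := Matrix.toLin' (x : Matrix ι ι F)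
  map_one' := by simp [End.one_eq_id]
  map_mul' x y := by simp [Matrix.toLin'_mul, End.mul_eq_comp]

theorem ρ_def (x : GL ι F) : ρ x = Matrix.toLin' (x : Matrix ι ι F) := rfl

theorem ρ_sc (z : Fˣ) : ρ (sc ι z) = (z : F) • (1 : End F (ι → F)) := by
  rw [ρ_def, sc_coe]; simp [End.one_eq_id]

theorem ρ_inj (x : GL ι F) : Function.Injective (ρ x) := by
  intro u v h
  have := congrArg (ρ x⁻¹) h
  rwa [← End.mul_apply, ← End.mul_apply, ← map_mul, inv_mul_cancel, map_one] at this

/-- `M` is abelian modulo scalars with commutators of exponent `r`, and only scalars centralise it -/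
structure CF (r : ℕ) (M : Subgroup (GL ι F)) : Prop where
  comm : ∀ x ∈ M, ∀ y ∈ M, ∃ z : Fˣ, z ^ r = 1 ∧ x * y = sc ι z * (y * x)
  cent : ∀ x : GL ι F, (∀ y ∈ M, x * y = y * x) → x ∈ scalars ι F

theorem CF.exists_form [Nonempty ι] {r : ℕ} {M : Subgroup (GL ι F)} (h : CF r M) :
    ∃ B : M →* M →* Fˣ, (∀ x y, B x y ^ r = 1) ∧
      ∀ x y : M, (x * y : GL ι F) = sc ι (B x y) * (y * x) := by
  choose b hb1 hb2 using h.comm
  have huniq : ∀ (x y : GL ι F) (z z' : Fˣ), x * y = sc ι z * (y * x) → x * y = sc ι z' * (y * x) →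
      z = z' := fun x y z z' h1 h2 => sc_inj (mul_right_cancel (h1.symm.trans h2))
  have hl : ∀ x x' y : M, b (x * x' : M) (x * x').2 y y.2 = b x x.2 y y.2 * b x' x'.2 y y.2 := by
    intro x x' y
    refine huniq _ _ _ _ (hb2 _ _ _ _) ?_
    rw [Subgroup.coe_mul, mul_assoc, hb2 x' x'.2 y y.2, ← mul_assoc, ← sc_comm, mul_assoc,
      ← mul_assoc (x : GL ι F), hb2 x x.2 y y.2, mul_comm (b x x.2 y y.2), map_mul]
    simp only [mul_assoc]
  have hr : ∀ x y y' : M, b x x.2 (y * y' : M) (y * y').2 = b x x.2 y y.2 * b x x.2 y' y'.2 := by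
    intro x y y'
    refine huniq _ _ _ _ (hb2 _ _ _ _) ?_
    rw [Subgroup.coe_mul, ← mul_assoc, hb2 x x.2 y y.2, mul_assoc, mul_assoc, hb2 x x.2 y' y'.2,
      ← mul_assoc (y : GL ι F), ← sc_comm, map_mul]
    simp only [mul_assoc]
  exact ⟨MonoidHom.mk' (fun x => MonoidHom.mk' (fun y => b x x.2 y y.2) (hr x))
    (fun x x' => MonoidHom.ext fun y => hl x x' y), fun x y => hb1 _ _ _ _, fun x y => hb2 _ _ _ _⟩

theorem CF.sup {r : ℕ} {R : Subgroup (GL ι F)} (h : CF r R) : CF r (R ⊔ scalars ι F) := by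
  refine ⟨fun x hx y hy => ?_, fun x hx => h.cent x fun y hy => hx y (Subgroup.mem_sup_left hy)⟩
  rw [← SetLike.mem_coe, Subgroup.mul_normal] at hx hy
  obtain ⟨a, ha, _, ⟨s, rfl⟩, rfl⟩ := hx
  obtain ⟨b, hb, _, ⟨t, rfl⟩, rfl⟩ := hy
  obtain ⟨z, hz, hab⟩ := h.comm a ha b hb
  refine ⟨z, hz, ?_⟩
  change a * sc ι s * (b * sc ι t) = sc ι z * (b * sc ι t * (a * sc ι s))
  rw [mul_assoc a, ← mul_assoc (sc ι s), sc_comm s b, mul_assoc b, ← mul_assoc a, hab,
    mul_assoc b, ← mul_assoc (sc ι t), sc_comm t a, mul_assoc a, ← map_mul, ← map_mul, mul_comm t]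
  simp only [mul_assoc]

/-- if `y x = z x y` with `z ≠ 1` of prime order `r`, eigenspaces of `x` are small -/
theorem eig_small {r : ℕ} (hr : r.Prime) {x y : GL ι F} {z : Fˣ} (hz : z ^ r = 1) (hz1 : z ≠ 1)
    (h : x * y = sc ι z * (y * x)) {c : F} (hc : c ≠ 0) :
    r * finrank F ((ρ x).eigenspace c) ≤ Fintype.card ι := by
  haveI := Fact.mk hr
  have hp : IsPrimitiveRoot (z : F) r := by
    rw [IsPrimitiveRoot.coe_units_iff, ← orderOf_eq_prime hz hz1]
    exact IsPrimitiveRoot.orderOf z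
  have := mul_finrank_eig_le (x := ρ x) (ρ_inj y) hp (fun v => by
    rw [← End.mul_apply, ← map_mul, h, map_mul, map_mul, ρ_sc]; simp) hc
  simpa using this

theorem eig_zero (x : GL ι F) : (ρ x).eigenspace 0 = ⊥ := by
  rw [End.eigenspace_zero, LinearMap.ker_eq_bot]
  exact ρ_inj x

theorem eq_one_of_fix {z : Fˣ} {v : ι → F} (hv : v ≠ 0) (h : ρ (sc ι z) v = v) : z = 1 := by
  rw [ρ_sc] at h
  have : ((z : F) - 1) • v = 0 := by rw [sub_smul, one_smul]; simpa [sub_eq_zero] using h
  exact Units.ext (by simpa [hv, sub_eq_zero] using this)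

/-- the intersection of an eigenspace with a translate -/
theorem two_mul_le (g e : GL ι F) (c : F) (hc : c ≠ 0) :
    2 * finrank F ((ρ g).eigenspace c) ≤ Fintype.card ι +
      finrank F ↥((ρ g).eigenspace c ⊓ (ρ (g * e * g⁻¹ * e⁻¹)).eigenspace 1) := by
  have h1 : finrank F ((ρ g).eigenspace c) ≤ finrank F ((ρ (e * g * e⁻¹)).eigenspace c) :=
    finrank_eig_le_of_conj (ρ_inj e) fun v hv => by
      rw [← End.mul_apply, ← map_mul, inv_mul_cancel_right, map_mul, End.mul_apply, hv, map_smul]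
  have h2 := Submodule.finrank_sup_add_finrank_inf_eq ((ρ g).eigenspace c)
    ((ρ (e * g * e⁻¹)).eigenspace c)
  have h3 : finrank F ↥((ρ g).eigenspace c ⊔ (ρ (e * g * e⁻¹)).eigenspace c) ≤ Fintype.card ι := by
    simpa using Submodule.finrank_le ((ρ g).eigenspace c ⊔ (ρ (e * g * e⁻¹)).eigenspace c)
  have h4 : finrank F ↥((ρ g).eigenspace c ⊓ (ρ (e * g * e⁻¹)).eigenspace c) ≤
      finrank F ↥((ρ g).eigenspace c ⊓ (ρ (g * e * g⁻¹ * e⁻¹)).eigenspace 1) := by
    refine Submodule.finrank_mono fun v hv => ⟨hv.1, ?_⟩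
    have h5 := End.mem_eigenspace_iff.1 hv.1
    have h6 := End.mem_eigenspace_iff.1 hv.2
    rw [SetLike.mem_coe, End.mem_eigenspace_iff, one_smul]
    have h7 : ρ (g * e * g⁻¹ * e⁻¹) (c • v) = c • v := by
      conv_lhs => rw [← h6]
      rw [← End.mul_apply, ← map_mul, show g * e * g⁻¹ * e⁻¹ * (e * g * e⁻¹) = g by group, h5]
    rw [map_smul] at h7
    exact smul_right_injective _ hc h7
  omega

theorem CF.general [Nonempty ι] {r : ℕ} (hr : r.Prime) {M : Subgroup (GL ι F)} (h : CF r M)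
    {g : GL ι F} (hg : g ∈ Subgroup.normalizer (M : Set (GL ι F))) (hns : g ∉ scalars ι F) (c : F) :
    r ∣ Fintype.card ι ∧
      2 * r * finrank F ((ρ g).eigenspace c) ≤ (r + 1) * Fintype.card ι ∧
      ((∀ e ∈ M, g * e * g⁻¹ * e⁻¹ ∈ scalars ι F) →
        r * finrank F ((ρ g).eigenspace c) ≤ Fintype.card ι) := by
  obtain ⟨e, he, hge⟩ : ∃ e ∈ M, g * e ≠ e * g := by
    by_contra! h'
    exact hns (h.cent g h')
  have hu : ∀ e ∈ M, g * e * g⁻¹ * e⁻¹ ∈ M := fun e he =>
    M.mul_mem ((Subgroup.mem_normalizer_iff.1 hg e).1 he) (M.inv_mem he)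
  have hnc : ∀ x ∈ M, x ∉ scalars ι F → ∃ y ∈ M, ∃ z : Fˣ, z ^ r = 1 ∧ z ≠ 1 ∧
      x * y = sc ι z * (y * x) := by
    intro x hx hxs
    obtain ⟨y, hy, hxy⟩ : ∃ y ∈ M, x * y ≠ y * x := by
      by_contra! h'
      exact hxs (h.cent x h')
    obtain ⟨z, hz, hz'⟩ := h.comm x hx y hy
    exact ⟨y, hy, z, hz, fun h1 => hxy (by rw [hz', h1, map_one, one_mul]), hz'⟩
  have hes : e ∉ scalars ι F := by
    rintro ⟨z, rfl⟩
    exact hge (sc_comm z g).symm
  have h3 : (∀ e ∈ M, g * e * g⁻¹ * e⁻¹ ∈ scalars ι F) →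
      r * finrank F ((ρ g).eigenspace c) ≤ Fintype.card ι := by
    intro hall
    by_cases hc : c = 0
    · rw [hc, eig_zero]; simp
    obtain ⟨z, hz⟩ := mem_scalars.1 (hall e he)
    have hz' : g * e = sc ι z * (e * g) := by rw [hz]; group
    have hz1 : z ≠ 1 := fun h1 => hge (by rw [hz', h1, map_one, one_mul])
    refine eig_small hr ?_ hz1 hz' hc
    -- `e ^ r` is scalar
    have her : e ^ r ∈ scalars ι F := by
      refine h.cent _ fun y hy => ?_
      obtain ⟨t, ht, hty⟩ := h.comm e he y hy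
      rw [H26.pow_mul_class2 hty (sc_comm t), ← map_pow, ht, map_one, one_mul]
    obtain ⟨s, hs⟩ := mem_scalars.1 her
    have h1 : e * g = sc ι z⁻¹ * (g * e) := by rw [hz', ← mul_assoc, ← map_mul]; simp
    have h2 := H26.pow_mul_class2 h1 (sc_comm _) r
    rw [← hs, sc_comm s g, ← map_pow] at h2
    have h4 : sc ι (z⁻¹ ^ r) = sc ι 1 := by
      rw [map_one]; exact mul_right_cancel (h2.symm.trans (one_mul _).symm)
    have := sc_inj h4
    rwa [inv_pow, inv_eq_one] at this
  refine ⟨?_, ?_, h3⟩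
  · obtain ⟨y, -, z, hz, hz1, hzz⟩ := hnc e he hes
    have h1 := congrArg (fun x : GL ι F => (x : Matrix ι ι F).det) hzz
    simp only [Units.val_mul, Matrix.det_mul, sc_coe, Matrix.det_smul, Matrix.det_one, mul_one] at h1
    have hd : (e : Matrix ι ι F).det * (y : Matrix ι ι F).det ≠ 0 :=
      mul_ne_zero (Matrix.GeneralLinearGroup.det_ne_zero e) (Matrix.GeneralLinearGroup.det_ne_zero y)
    have h2 : (z : F) ^ Fintype.card ι = 1 := by
      apply mul_right_cancel₀ hd
      rw [one_mul]; linear_combination -h1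
    haveI := Fact.mk hr
    rw [← orderOf_eq_prime hz hz1]
    exact orderOf_dvd_of_pow_eq_one (Units.ext (by simpa using h2))
  · by_cases hc : c = 0
    · rw [hc, eig_zero]; simp
    by_cases hall : ∀ e ∈ M, g * e * g⁻¹ * e⁻¹ ∈ scalars ι F
    · have := h3 hall
      have h2 := hr.two_le
      nlinarith
    · push Not at hall
      obtain ⟨e', he', hs⟩ := hall
      obtain ⟨y, -, z, hz, hz1, hzz⟩ := hnc _ (hu e' he') hs
      have h1 := eig_small hr hz hz1 hzz one_ne_zero
      have h2 := two_mul_le g e' c hc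
      have h4 : finrank F ↥((ρ g).eigenspace c ⊓ (ρ (g * e' * g⁻¹ * e'⁻¹)).eigenspace 1) ≤
        finrank F ((ρ (g * e' * g⁻¹ * e'⁻¹)).eigenspace 1) := Submodule.finrank_mono inf_le_right
      nlinarith

theorem CF.half [Nonempty ι] {r : ℕ} (hr : r.Prime) {M : Subgroup (GL ι F)} (h : CF r M)
    {g : GL ι F} (hg : g ∈ Subgroup.normalizer (M : Set (GL ι F))) (hns : g ∉ scalars ι F)
    {ϖ : ℕ} (hϖ : ϖ.Prime) (h2 : ϖ ≠ 2) (hgo : g ^ ϖ = 1) (h3 : ϖ = r → 5 ≤ r) (c : F) :
    2 * finrank F ((ρ g).eigenspace c) ≤ Fintype.card ι := by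
  by_contra hlt
  push Not at hlt
  have hc : c ≠ 0 := by
    rintro rfl
    rw [eig_zero] at hlt; simp at hlt
  obtain ⟨B, hBr, hB⟩ := h.exists_form
  set σ : MulAut M := M.normalizerMonoidHom ⟨g, hg⟩ with hσd
  have hσ : ∀ e : M, (σ e : GL ι F) = g * e * g⁻¹ := fun e => rfl
  have hu : ∀ e : M, ((uu σ e : M) : GL ι F) = g * e * g⁻¹ * (e : GL ι F)⁻¹ := fun e => rfl
  have hσp : σ ^ ϖ = 1 := by
    rw [hσd, ← map_pow, show (⟨g, hg⟩ : Subgroup.normalizer (M : Set (GL ι F))) ^ ϖ = 1 from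
      Subtype.ext hgo, map_one]
  have huniq : ∀ (x y : M) (z : Fˣ), (x * y : GL ι F) = sc ι z * (y * x) → B x y = z :=
    fun x y z h1 => sc_inj (mul_right_cancel ((hB x y).symm.trans h1))
  have hanti : ∀ x y, B x y * B y x = 1 := by
    intro x y
    have h1 := hB x y
    rw [hB y x, ← mul_assoc, ← map_mul] at h1
    apply sc_inj (ι := ι)
    rw [map_one]
    exact mul_right_cancel (h1.symm.trans (one_mul _).symm)
  have hinv : ∀ x y, B (σ x) (σ y) = B x y := by
    intro x y
    refine huniq _ _ _ ?_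
    rw [hσ, hσ, show g * x * g⁻¹ * (g * y * g⁻¹) = g * (x * y) * g⁻¹ by group, hB, ← mul_assoc g,
      ← sc_comm]
    group
  -- fixed vectors
  have hv : ∀ e : M, ∃ v : ι → F, v ≠ 0 ∧ ρ ((uu σ e : M) : GL ι F) v = v ∧
      ρ (σ (uu σ e) : GL ι F) v = v := by
    intro e
    have h1 := two_mul_le g (e : GL ι F) c hc
    have h4 : (ρ g).eigenspace c ⊓ (ρ (g * (e : GL ι F) * g⁻¹ * (e : GL ι F)⁻¹)).eigenspace 1 ≠ ⊥ := by
      intro h0
      rw [h0, finrank_bot] at h1
      omega
    obtain ⟨v, ⟨hv1, hv2⟩, hv0⟩ := Submodule.exists_mem_ne_zero_of_ne_bot h4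
    rw [SetLike.mem_coe, End.mem_eigenspace_iff] at hv1 hv2
    rw [one_smul, ← hu] at hv2
    refine ⟨v, hv0, hv2, ?_⟩
    have h5 : ρ (σ (uu σ e) : GL ι F) (c • v) = c • v := by
      conv_lhs => rw [← hv1]
      rw [← End.mul_apply, ← map_mul, hσ, inv_mul_cancel_right, map_mul, End.mul_apply, hv2, hv1]
    rw [map_smul] at h5
    exact smul_right_injective _ hc h5
  have hiso : ∀ e, B (uu σ e) (σ (uu σ e)) = 1 := by
    intro e
    obtain ⟨v, hv0, h1, h2⟩ := hv e
    refine eq_one_of_fix hv0 ?_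
    have := congrArg (fun x => ρ x v) (hB (uu σ e) (σ (uu σ e)))
    simp only [map_mul, End.mul_apply, h1, h2] at this
    exact this.symm
  have hcent : ∀ x : M, (∀ y, B x y = 1) → (x : GL ι F) ∈ scalars ι F := fun x hx =>
    h.cent _ fun y hy => by rw [hB x ⟨y, hy⟩, hx, map_one, one_mul]
  obtain ⟨k, hk⟩ := hϖ.odd_of_ne_two h2
  have hcube := cube_trivial hanti hinv (hk ▸ hσp) hiso
  have hr2 := hr.two_le
  obtain ⟨e, he1, he2⟩ : ∃ e : M, (∃ y, B (uu σ e) y ≠ 1) ∧ ∀ y, B (uu σ (uu σ e)) y = 1 := by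
    by_contra! hno
    have hall : ∀ e : M, ∀ y, B (uu σ e) y = 1 := by
      intro e
      by_contra! hne
      obtain ⟨y, hy⟩ := hno _ (hno e hne)
      exact hy (hcube e y)
    have := (h.general hr hg hns c).2.2 fun e he => by
      rw [← hu ⟨e, he⟩]; exact hcent _ (hall _)
    nlinarith
  obtain ⟨y, hy⟩ := he1
  have hϖr : ϖ = r := by
    by_contra hne
    have hcop := (Nat.coprime_primes hϖ hr).2 hne
    exact hy ((pow_eq_one_iff_of_coprime hcop).1 ⟨pow_trivial hinv hσp he2 y, hBr _ _⟩)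
  obtain ⟨z, hz⟩ := mem_scalars.1 (hcent _ he2)
  obtain ⟨v, hv0, h1, h2'⟩ := hv e
  set u : M := uu σ e with hud
  have hz' : (σ u : GL ι F) = sc ι z * u := by rw [hz, hu, hσ]; group
  have hz1 : z = 1 := by
    refine eq_one_of_fix hv0 ?_
    rwa [hz', map_mul, End.mul_apply, h1] at h2'
  rw [hz1, map_one, one_mul, hσ] at hz'
  have hcomm : Commute (u : GL ι F) g := by
    change (u : GL ι F) * g = g * u
    conv_lhs => rw [← hz']
    group
  have heg : (e : GL ι F) * g * (e : GL ι F)⁻¹ = (u : GL ι F)⁻¹ * g := by rw [hud, hu]; group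
  have hw : ((u : GL ι F)⁻¹) ^ r = 1 := by
    have := congrArg (· ^ r) heg
    simp only [conj_pow] at this
    rw [hcomm.inv_left.mul_pow, ← hϖr, hgo] at this
    rw [← hϖr]
    simpa using this.symm
  haveI := Fact.mk hr
  have hy' : B u⁻¹ y ≠ 1 := by simpa using hy
  have hω : IsPrimitiveRoot (B u⁻¹ y : F) r := by
    rw [IsPrimitiveRoot.coe_units_iff, ← orderOf_eq_prime (hBr u⁻¹ y) hy']
    exact IsPrimitiveRoot.orderOf _
  have := four_count (g := ρ g) (w := ρ (u⁻¹ : M)) (e := ρ e) (μ := B e u⁻¹) (ρ_inj _)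
    (by rw [← map_mul, ← map_mul]; exact congrArg ρ hcomm.inv_left)
    (by rw [← map_mul, ← map_mul, ← map_mul, Subgroup.coe_inv, ← heg]; simp)
    (by rw [← map_mul, hB, map_mul, ρ_sc, map_mul]; simp) hr (h3 hϖr)
    (by rw [← map_pow, Subgroup.coe_inv, hw, map_one]) hω
    (by rw [← Units.val_pow_eq_pow_val, hBr, Units.val_one])
    (fun a ha => by simpa using eig_small hr (hBr u⁻¹ y) hy' (hB u⁻¹ y) ha) hc
  simp only [finrank_pi] at this
  omega

theorem cf_of_extraspecial {r : ℕ} {R : Subgroup (GL ι F)} [Nonempty ι]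
    (hZ : Nat.card (Subgroup.center R) = r) (hext : commutator R ≤ Subgroup.center R)
    (hirr : ActsAbsolutelyIrreducibly (matrixSet R)) : CF r R := by
  have hcent : ∀ x : GL ι F, (∀ y ∈ R, x * y = y * x) → x ∈ scalars ι F := by
    intro x hx
    obtain ⟨c, hc⟩ := hirr.2 x (by
      rintro _ ⟨y, hy, rfl⟩
      rw [← Units.val_mul, hx y hy, Units.val_mul])
    have hc0 : c ≠ 0 := by
      rintro rfl
      have := Matrix.GeneralLinearGroup.det_ne_zero x
      rw [hc] at this
      simp at this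
    exact (mem_scalars_iff x).2 ⟨Units.mk0 c hc0, hc⟩
  refine ⟨fun x hx y hy => ?_, hcent⟩
  have h1 : ⁅(⟨x, hx⟩ : R), (⟨y, hy⟩ : R)⁆ ∈ Subgroup.center R :=
    hext (Subgroup.commutator_mem_commutator (Subgroup.mem_top _) (Subgroup.mem_top _))
  obtain ⟨z, hz⟩ := mem_scalars.1 (hcent (⁅(⟨x, hx⟩ : R), (⟨y, hy⟩ : R)⁆ : R) fun w hw =>
    (congrArg Subtype.val (Subgroup.mem_center_iff.1 h1 ⟨w, hw⟩)).symm)
  refine ⟨z, ?_, ?_⟩
  · apply sc_inj (ι := ι)
    have := pow_card_eq_one' (G := Subgroup.center R) (x := ⟨_, h1⟩)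
    rw [hZ] at this
    rw [map_pow, hz, map_one]
    exact congrArg (fun t : Subgroup.center R => ((t : R) : GL ι F)) this
  · rw [hz, commutatorElement_def]
    simp [mul_assoc]

end Mat

end Cfsg.Agent.H13.XE
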