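import Mathlib
import Cfsg.Agent.H13.XE2
import Cfsg.Agent.H18.Cn5
import Cfsg.Agent.H18.Li3
import Cfsg.Agent.H10.Conj2
import Cfsg.Agent.H10.Sp
import Cfsg.Agent.S2677

/-! Eigenvalue multisets and conjugacy of semisimple elements in classical groups. -/

set_option autoImplicit false

namespace Cfsg.Agent.H13.XE

open Module Polynomial Cfsg.Geo L0 H10 H11
open scoped MatrixGroups Matrix

variable {ι : Type} [Fintype ι] [DecidableEq ι] {F : Type*} [Field F]

theorem irr_of_pow {A : Matrix ι ι F} {m : ℕ} (hm : (m : F) ≠ 0) (h : A ^ m = 1) {u : F[X]}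
    (hu : u ∈ ty A) : Irreducible u ∧ u.Monic ∧ u ∣ X ^ m - 1 := by
  have h1 : u ∣ X ^ m - 1 := (aeval_eq_zero_iff_ty A _).1 (by simp [h]) u hu
  exact ⟨(prim_of_mem_ty hu).irreducible_of_squarefree
    (X_pow_sub_one_separable_iff.2 hm).squarefree h1, (prim_of_mem_ty hu).monic, h1⟩

theorem ty_eq_of_charpoly {A B : Matrix ι ι F} {m : ℕ} (hm : (m : F) ≠ 0) (hA : A ^ m = 1)
    (hB : B ^ m = 1) (h : A.charpoly = B.charpoly) : ty A = ty B :=
  multiset_eq_of_prod_eq (fun _ hu => ⟨(irr_of_pow hm hA hu).1, (irr_of_pow hm hA hu).2.1⟩)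
    (fun _ hu => ⟨(irr_of_pow hm hB hu).1, (irr_of_pow hm hB hu).2.1⟩)
    (by rw [← charpoly_eq_prod_ty, ← charpoly_eq_prod_ty, h])

/-- the order is prime to the characteristic -/
def SSm (x : GL ι F) : Prop := ∃ m : ℕ, (m : F) ≠ 0 ∧ x ^ m = 1

theorem ssm_of_pow [Finite F] {x : GL ι F} {r : ℕ} (hr : (r : F) ≠ 0) {z : Fˣ}
    (h : x ^ r = sc ι z) : SSm x := by
  refine ⟨r * (Nat.card F - 1), ?_, ?_⟩
  · have := Fintype.ofFinite F
    rw [Nat.cast_mul, Nat.cast_sub Finite.card_pos, Nat.card_eq_fintype_card,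
      FiniteField.cast_card_eq_zero]
    simpa using hr
  · rw [pow_mul, h, ← map_pow, ← Nat.card_units, pow_card_eq_one', map_one]

theorem SSm.common {x y : GL ι F} (hx : SSm x) (hy : SSm y) :
    ∃ m : ℕ, (m : F) ≠ 0 ∧ x ^ m = 1 ∧ y ^ m = 1 := by
  obtain ⟨a, ha, hx⟩ := hx
  obtain ⟨b, hb, hy⟩ := hy
  exact ⟨a * b, by rw [Nat.cast_mul]; exact mul_ne_zero ha hb, by rw [pow_mul, hx, one_pow],
    by rw [mul_comm, pow_mul, hy, one_pow]⟩

theorem SSm.ty_eq {x y : GL ι F} (hx : SSm x) (hy : SSm y) (h : x.1.charpoly = y.1.charpoly) :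
    ty x.1 = ty y.1 := by
  obtain ⟨m, hm, h1, h2⟩ := hx.common hy
  exact ty_eq_of_charpoly hm (by rw [← Units.val_pow_eq_pow_val, h1, Units.val_one])
    (by rw [← Units.val_pow_eq_pow_val, h2, Units.val_one]) h

theorem SSm.exists_irr [Nonempty ι] {x : GL ι F} (hx : SSm x) :
    ∃ u ∈ ty x.1, Irreducible u ∧ u.Monic := by
  obtain ⟨m, hm, h1⟩ := hx
  obtain ⟨u, hu⟩ := Multiset.exists_mem_of_ne_zero (s := ty x.1) fun e => by
    have := sum_natDegree_ty x.1
    rw [e] at this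
    exact Fintype.card_ne_zero this.symm
  have := irr_of_pow hm (by rw [← Units.val_pow_eq_pow_val, h1, Units.val_one]) hu
  exact ⟨u, hu, this.1, this.2.1⟩

theorem conj_sl [Finite F] [Nonempty ι] {x y : GL ι F} (hx : SSm x) (hy : SSm y)
    (h : x.1.charpoly = y.1.charpoly) : ∃ g ∈ specialLinear ι F, g⁻¹ * x * g = y := by
  obtain ⟨c, hc⟩ := isConj_iff.1 ((isConj_iff_ty x y).2 (hx.ty_eq hy h))
  obtain ⟨u, hu, hi, -⟩ := hx.exists_irr
  have hfd : H18.El.FD x.1 := fun d _ => exists_commute_det_of_irreducible hu hi d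
  obtain ⟨k, hk, e⟩ := hfd.conj c⁻¹
  exact ⟨k, hk, by rw [e, inv_inv, hc]⟩

theorem det_eq_of_charpoly {A B : Matrix ι ι F} (h : A.charpoly = B.charpoly) : A.det = B.det := by
  rw [Matrix.det_eq_sign_charpoly_coeff, Matrix.det_eq_sign_charpoly_coeff, h]

theorem conj_su [Fintype F] {q n : ℕ} (hF : Fintype.card F = q ^ 2) (hn : 0 < n)
    {x y : GL (Fin n) F} (hxU : x ∈ GU n F q ⊓ specialLinear (Fin n) F) (hyU : y ∈ GU n F q)
    (hx : SSm x) (hy : SSm y) (h : x.1.charpoly = y.1.charpoly) :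
    ∃ g ∈ GU n F q ⊓ specialLinear (Fin n) F, g⁻¹ * x * g = y := by
  haveI : Nonempty (Fin n) := ⟨⟨0, hn⟩⟩
  have hq := qConj_conjQ hF
  have hH := hq.isHerm (Fin n)
  have hB := hermB_sep (σ := conjQ hF) (Fin n)
  have hr := hH.range_detI hB (by simp; omega)
  have hdx : x.1.det = 1 := H18.El.mem_sl.1 hxU.2
  let a : SU n F q := ⟨⟨x.1, hdx⟩, hxU.1⟩
  let b : SU n F q := ⟨⟨y.1, (det_eq_of_charpoly h).symm.trans hdx⟩, hyU⟩
  have h3 : ty a.1.1 = ty b.1.1 := hx.ty_eq hy h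
  have hab : IsConj a b := by
    refine H18.Cn.isConj_of_equiv (suEquiv hq n) (isConj_ker_of _
      (isConj_herm hH hB (by rw [tyE_suEquiv, tyE_suEquiv, h3])) fun g => ?_)
    obtain ⟨u, hu, hi, hm⟩ := hx.exists_irr
    obtain ⟨k, h4, h5⟩ := RealD.exists_comm hH hB _ ((H18.Cn.realD_herm hH.ne hH.invol
      (fun u => prim_of_mem_tyE) (H18.Cn.gd_isom _)
        (H18.Cn.tyE_isom hH.form hB (suEquiv hq _ a).1)).2 u
        (by rwa [tyE_suEquiv]) _ (hr.le ⟨g, rfl⟩))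
    rw [H18.Cn.ex_irr hi hm, pow_one] at h5
    exact ⟨k, h4, Units.ext h5⟩
  obtain ⟨c, hc⟩ := isConj_iff.1 hab
  refine ⟨(Matrix.SpecialLinearGroup.toGL c.1)⁻¹, inv_mem ⟨c.2, H18.El.mem_sl.2 c.1.2⟩, ?_⟩
  have := congrArg (fun t : SU n F q => Matrix.SpecialLinearGroup.toGL t.1) hc
  simp only [Subgroup.coe_mul, map_mul, Subgroup.coe_inv, map_inv] at this
  rw [inv_inv]
  have e1 : Matrix.SpecialLinearGroup.toGL a.1 = x := Units.ext rfl
  have e2 : Matrix.SpecialLinearGroup.toGL b.1 = y := Units.ext rfl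
  rwa [e1, e2] at this

theorem mem_spGL' {m : ℕ} {g : GL (Fin m ⊕ Fin m) F} :
    g ∈ spGL m F ↔ g.1 ∈ Matrix.symplecticGroup (Fin m) F := by
  rw [mem_symplecticGroup_iff_form]
  simp only [spBilin_eq_sympForm]
  rfl

theorem conj_sp [Finite F] {m : ℕ} {x y : GL (Fin m ⊕ Fin m) F} (hxU : x ∈ spGL m F)
    (hyU : y ∈ spGL m F) (hx : SSm x) (hy : SSm y) (h : x.1.charpoly = y.1.charpoly) :
    ∃ g ∈ spGL m F, g⁻¹ * x * g = y := by
  obtain ⟨c, hc⟩ := isConj_iff.1 ((isConj_iff_ty x y).2 (hx.ty_eq hy h))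
  obtain ⟨k, hk, hxk⟩ := hx
  have key : ∀ g : GL (Fin m ⊕ Fin m) F, g ∈ spGL m F ↔
      glEquiv _ F g ∈ Isom (σ := RingHom.id F) (spBilin (Fin m) F) fun _ => 0 := fun g =>
    ⟨fun h => ⟨fun u v => by simp only [spBilin_eq_sympForm]; exact h u v, fun _ => rfl⟩,
      fun h u v => by have := h.1 u v; simp only [spBilin_eq_sympForm] at this; exact this⟩
  have := isConj_of_alt (spBilin_isAlt (l := Fin m) (F := F)) spBilin_nondegenerate.1
    ⟨_, (key x).1 hxU⟩ ⟨_, (key y).1 hyU⟩ (x := glEquiv _ F c) (fun v => by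
      change glEquiv _ F c (glEquiv _ F x v) = glEquiv _ F y (glEquiv _ F c v)
      rw [← LinearEquiv.mul_apply, ← LinearEquiv.mul_apply, ← map_mul, ← map_mul, ← hc,
        inv_mul_cancel_right]) (n := k) (by rw [← map_pow, hxk, map_one]) hk
  obtain ⟨d, hd⟩ := isConj_iff.1 this
  refine ⟨((glEquiv _ F).symm d.1)⁻¹, inv_mem ((key _).2 (by simp)), ?_⟩
  apply (glEquiv _ F).injective
  have := congrArg Subtype.val hd
  simpa using this

/-- eigenvalues in the algebraic closure -/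
noncomputable def Ev (x : GL ι F) : Multiset (AlgebraicClosure F) :=
  (x.1.charpoly.map (algebraMap F (AlgebraicClosure F))).roots

local notation "φ" => algebraMap F (AlgebraicClosure F)

theorem ev_card (x : GL ι F) : (Ev x).card = Fintype.card ι := by
  rw [Ev, IsAlgClosed.card_roots_eq_natDegree, natDegree_map, Matrix.charpoly_natDegree_eq_dim]

theorem ev_prod (x : GL ι F) : ((Ev x).map fun a => X - C a).prod = x.1.charpoly.map φ :=
  prod_multiset_X_sub_C_of_monic_of_roots_card_eq ((Matrix.charpoly_monic _).map _)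
    IsAlgClosed.card_roots_eq_natDegree

theorem charpoly_eq_of_ev {x y : GL ι F} (h : Ev x = Ev y) : x.1.charpoly = y.1.charpoly :=
  map_injective _ (algebraMap F (AlgebraicClosure F)).injective (by rw [← ev_prod, ← ev_prod, h])

/-- diagonalisation over the algebraic closure -/
def Dg (x : GL ι F) (d : ι → AlgebraicClosure F) : Prop :=
  ∃ P : GL ι (AlgebraicClosure F), P.1 * Matrix.diagonal d * (P⁻¹).1 = x.1.map φ

theorem Dg.ev {x : GL ι F} {d : ι → AlgebraicClosure F} (h : Dg x d) :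
    Ev x = Finset.univ.val.map d := by
  obtain ⟨P, hP⟩ := h
  rw [Ev, ← Matrix.charpoly_map, ← hP, Matrix.coe_units_inv, Matrix.charpoly_units_conj,
    Matrix.charpoly_diagonal, Finset.prod_eq_multiset_prod]
  rw [show (Finset.univ.val.map fun i => X - C (d i)) =
    (Finset.univ.val.map d).map (fun a => X - C a) by simp]
  exact roots_multiset_prod_X_sub_C _

theorem SSm.exists_dg {x : GL ι F} (hx : SSm x) : ∃ d, Dg x d := by
  obtain ⟨m, hm, h1⟩ := hx
  obtain ⟨d, hd⟩ : ∃ d : ι → AlgebraicClosure F, Ev x = Finset.univ.val.map d := by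
    classical
    let e : (Ev x).ToType ≃ ι := Fintype.equivOfCardEq (by rw [Multiset.card_coe, ev_card])
    refine ⟨fun i => (e.symm i).1, ?_⟩
    conv_lhs => rw [← Multiset.map_univ_coe (Ev x)]
    rw [← Finset.map_univ_equiv e.symm, Finset.map_val, Multiset.map_map]
    rfl
  have hm' : (m : AlgebraicClosure F) ≠ 0 := by
    rw [← map_natCast φ]; exact (_root_.map_ne_zero _).2 hm
  have hA : (x.1.map φ) ^ m = 1 := by
    rw [← RingHom.mapMatrix_apply, ← map_pow, ← Units.val_pow_eq_pow_val, h1, Units.val_one, map_one]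
  have hc : (Matrix.diagonal d).charpoly = (x.1.map φ).charpoly := by
    rw [Matrix.charpoly_map, ← ev_prod, hd, Matrix.charpoly_diagonal, Finset.prod_eq_multiset_prod]
    simp
  have hD : (Matrix.diagonal d) ^ m = 1 := by
    rw [Matrix.diagonal_pow, ← Matrix.diagonal_one]
    congr 1
    funext i
    have h2 : (x.1.map φ).charpoly.IsRoot (d i) := by
      rw [← hc, Matrix.charpoly_diagonal, IsRoot, eval_prod]
      exact Finset.prod_eq_zero (Finset.mem_univ i) (by simp)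
    rw [charpoly_eq_prod_ty, IsRoot, eval_multiset_prod, Multiset.prod_eq_zero_iff,
      Multiset.mem_map] at h2
    obtain ⟨u, hu, h3⟩ := h2
    have := eval_eq_zero_of_dvd_of_eval_eq_zero (irr_of_pow hm' hA hu).2.2 h3
    simpa [sub_eq_zero] using this
  obtain ⟨c, hc⟩ := (isConj_iff_ty'.2 (ty_eq_of_charpoly hm' hD hA hc))
  exact ⟨d, c, by rw [hc.eq]; simp⟩

theorem Dg.pow {x : GL ι F} {d : ι → AlgebraicClosure F} (h : Dg x d) (k : ℕ) :
    Dg (x ^ k) (d ^ k) := by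
  obtain ⟨P, hP⟩ := h
  refine ⟨P, ?_⟩
  rw [← Matrix.diagonal_pow, ← Units.conj_pow, hP, Units.val_pow_eq_pow_val,
    ← RingHom.mapMatrix_apply, ← RingHom.mapMatrix_apply, map_pow]

theorem Dg.smul {x : GL ι F} {d : ι → AlgebraicClosure F} (h : Dg x d) (c : Fˣ) :
    Dg (sc ι c * x) (fun i => φ c * d i) := by
  obtain ⟨P, hP⟩ := h
  refine ⟨P, ?_⟩
  rw [show (fun i => φ c * d i) = φ c • d from rfl, Matrix.diagonal_smul, mul_smul_comm,
    smul_mul_assoc, hP, Units.val_mul, sc_coe, smul_mul_assoc, one_mul, S2677.msm]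

theorem Dg.trace {x : GL ι F} {d : ι → AlgebraicClosure F} (h : Dg x d) :
    φ x.1.trace = ∑ i, d i := by
  obtain ⟨P, hP⟩ := h
  rw [AddMonoidHom.map_trace φ, ← hP, Matrix.trace_units_conj, Matrix.trace_diagonal]

theorem Dg.det {x : GL ι F} {d : ι → AlgebraicClosure F} (h : Dg x d) :
    φ x.1.det = ∏ i, d i := by
  obtain ⟨P, hP⟩ := h
  rw [RingHom.map_det, RingHom.mapMatrix_apply, ← hP, Matrix.det_units_conj, Matrix.det_diagonal]

theorem Dg.eq_iff {x : GL ι F} {d : ι → AlgebraicClosure F} (h : Dg x d) (c : F) :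
    x.1 = c • 1 ↔ ∀ i, d i = φ c := by
  obtain ⟨P, hP⟩ := h
  constructor
  · intro hx i
    have h1 : Matrix.diagonal d = (P⁻¹).1 * x.1.map φ * P.1 := by rw [← hP]; simp [mul_assoc]
    rw [hx, S2677.msm, Matrix.map_one _ (map_zero _) (map_one _)] at h1
    have := congrFun (congrFun h1 i) i
    simpa [Algebra.algebraMap_eq_smul_one] using this
  · intro hd
    apply Matrix.map_injective (algebraMap F (AlgebraicClosure F)).injective
    change x.1.map φ = (c • (1 : Matrix ι ι F)).map φ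
    rw [← hP, S2677.msm, Matrix.map_one _ (map_zero _) (map_one _), show d = fun _ => φ c from
      funext hd, ← Matrix.smul_one_eq_diagonal]
    simp

theorem SSm.ev_pow {x : GL ι F} (hx : SSm x) (k : ℕ) : Ev (x ^ k) = (Ev x).map (· ^ k) := by
  obtain ⟨d, hd⟩ := hx.exists_dg
  rw [(hd.pow k).ev, hd.ev, Multiset.map_map]; rfl

theorem SSm.ev_smul {x : GL ι F} (hx : SSm x) (c : Fˣ) :
    Ev (sc ι c * x) = (Ev x).map (φ c * ·) := by
  obtain ⟨d, hd⟩ := hx.exists_dg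
  rw [(hd.smul c).ev, hd.ev, Multiset.map_map]; rfl

theorem SSm.ev_sum {x : GL ι F} (hx : SSm x) : φ x.1.trace = (Ev x).sum := by
  obtain ⟨d, hd⟩ := hx.exists_dg
  rw [hd.trace, hd.ev]; rfl

theorem SSm.ev_det {x : GL ι F} (hx : SSm x) : φ x.1.det = (Ev x).prod := by
  obtain ⟨d, hd⟩ := hx.exists_dg
  rw [hd.det, hd.ev]; rfl

theorem SSm.eq_iff {x : GL ι F} (hx : SSm x) (c : F) : x.1 = c • 1 ↔ ∀ a ∈ Ev x, a = φ c := by
  obtain ⟨d, hd⟩ := hx.exists_dg
  rw [hd.eq_iff, hd.ev]; simp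

theorem SSm.pow {x : GL ι F} (hx : SSm x) (k : ℕ) : SSm (x ^ k) := by
  obtain ⟨m, hm, h⟩ := hx
  exact ⟨m, hm, by rw [← pow_mul, mul_comm, pow_mul, h, one_pow]⟩

theorem SSm.ev_root {x : GL ι F} (hx : SSm x) {k : ℕ} (h : x ^ k = 1) : ∀ a ∈ Ev x, a ^ k = 1 := by
  intro a ha
  have := ((hx.pow k).eq_iff 1).1 (by rw [h]; simp) (a ^ k)
    (by rw [hx.ev_pow]; exact Multiset.mem_map_of_mem _ ha)
  simpa using this

theorem SSm.ev_frob [Fintype F] {x : GL ι F} (hx : SSm x) :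
    (Ev x).map (· ^ Fintype.card F) = Ev x := by
  rw [← hx.ev_pow, Ev, Units.val_pow_eq_pow_val, FiniteField.Matrix.charpoly_pow_card, Ev]

theorem ev_unitary {p n : ℕ} [Fact p.Prime] [CharP F p] {x : GL (Fin n) F} (hx : x ∈ GU n F p) :
    Ev x⁻¹ = (Ev x).map (· ^ p) := by
  have h1 := (S2677.mem_GU_iff (τ := frobenius F p) (fun _ => rfl)).1 hx
  have h2 : (x⁻¹).1 = (x.1.map (frobenius F p))ᵀ := by
    have h3 := congrArg Matrix.transpose h1
    rw [Matrix.transpose_mul, Matrix.transpose_transpose, Matrix.transpose_one] at h3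
    exact Units.inv_eq_of_mul_eq_one_left h3
  rw [Ev, h2, Matrix.charpoly_transpose, Matrix.charpoly_map, Polynomial.map_map,
    show (φ).comp (frobenius F p) = (frobenius (AlgebraicClosure F) p).comp φ from
      RingHom.ext fun a => by simp [frobenius_def], ← Polynomial.map_map,
    (IsAlgClosed.splits _).roots_map]
  rfl

theorem ev_sp {m : ℕ} {x : GL (Fin m ⊕ Fin m) F} (hx : x ∈ spGL m F) : Ev x⁻¹ = Ev x := by
  have h1 := mem_spGL'.1 hx
  have h2 : (x⁻¹).1 = -Matrix.J (Fin m) F * x.1ᵀ * Matrix.J (Fin m) F := by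
    rw [Matrix.coe_units_inv]
    exact SymplecticGroup.inv_eq_symplectic_inv _ h1
  let J : GL (Fin m ⊕ Fin m) F := ⟨-Matrix.J (Fin m) F, Matrix.J (Fin m) F,
    by simp [Matrix.J_squared], by simp [Matrix.J_squared]⟩
  have h3 := Matrix.charpoly_units_conj J x.1ᵀ
  rw [← Matrix.coe_units_inv] at h3
  rw [Ev, h2, show -Matrix.J (Fin m) F * x.1ᵀ * Matrix.J (Fin m) F = J.1 * x.1ᵀ * (J⁻¹).1 from rfl,
    h3, Matrix.charpoly_transpose, Ev]

end Cfsg.Agent.H13.XE
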