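import Mathlib
import Cfsg.Agent.H13.XN2

/-! Eigenvalue classifications in small dimensions; fixed points on symplectic-type groups. -/

set_option autoImplicit false

namespace Cfsg.Agent.H13.XE

open Module Polynomial Cfsg.Geo L0 H10 H11 Multiset
open scoped MatrixGroups Matrix

theorem rep3 {α : Type*} {m : Multiset α} {u v w : α} (h : ∀ a ∈ m, a = u ∨ a = v ∨ a = w) :
    ∃ k l n, m = replicate k u + replicate l v + replicate n w := by
  induction m using Multiset.induction_on with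
  | empty => exact ⟨0, 0, 0, by simp⟩
  | cons a m ih =>
    obtain ⟨k, l, n, rfl⟩ := ih fun b hb => h b (mem_cons_of_mem hb)
    rcases h a (mem_cons_self _ _) with rfl | rfl | rfl
    · exact ⟨k + 1, l, n, by simp [replicate_succ]⟩
    · exact ⟨k, l + 1, n, by simp [replicate_succ]⟩
    · exact ⟨k, l, n + 1, by simp [replicate_succ]⟩

theorem rep2 {α : Type*} {m : Multiset α} {u v : α} (h : ∀ a ∈ m, a = u ∨ a = v) :
    ∃ k l, m = replicate k u + replicate l v := by
  obtain ⟨k, l, n, rfl⟩ := rep3 (w := v) fun a ha => (h a ha).imp_right Or.inl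
  exact ⟨k, l + n, by rw [replicate_add, add_assoc]⟩

variable {ι : Type} [Fintype ι] [DecidableEq ι] {F : Type*} [Field F]

local notation "φ" => algebraMap F (AlgebraicClosure F)
local notation "K" => AlgebraicClosure F

theorem φ_inj : Function.Injective φ := (algebraMap F (AlgebraicClosure F)).injective

theorem castK {m : ℕ} (h : (m : F) ≠ 0) : (m : K) ≠ 0 := by
  rw [← map_natCast φ]; exact (_root_.map_ne_zero _).2 h

theorem ev_aeval {x : GL ι F} {f : F[X]} (h : aeval x.1 f = 0) {a : K} (ha : a ∈ Ev x) :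
    aeval a f = 0 := by
  have h1 := isRoot_of_mem_roots ha
  rw [IsRoot, eval_map_algebraMap, charpoly_eq_prod_ty, map_multiset_prod, prod_eq_zero_iff,
    Multiset.mem_map] at h1
  obtain ⟨u, hu, h2⟩ := h1
  exact aeval_eq_zero_of_dvd_aeval_eq_zero ((aeval_eq_zero_iff_ty _ _).1 h u hu) h2

theorem ev_two {x : GL ι F} {a b : F} (h : (x.1 - a • 1) * (x.1 - b • 1) = 0) :
    ∃ k l, k + l = Fintype.card ι ∧ Ev x = replicate k (φ a) + replicate l (φ b) := by
  obtain ⟨k, l, e⟩ := rep2 (m := Ev x) (u := φ a) (v := φ b) fun t ht => by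
    have := ev_aeval (f := (X - C a) * (X - C b))
      (by simpa [Algebra.algebraMap_eq_smul_one] using h) ht
    simpa [sub_eq_zero] using this
  exact ⟨k, l, by rw [← ev_card x, e]; simp, e⟩

theorem SSm.tr_two {x : GL ι F} (hx : SSm x) {a b : F} {k l : ℕ}
    (e : Ev x = replicate k (φ a) + replicate l (φ b)) : x.1.trace = k * a + l * b := by
  apply φ_inj
  rw [hx.ev_sum, e]; simp

theorem SSm.pos_two {x : GL ι F} (hx : SSm x) (hns : ∀ c : F, x.1 ≠ c • 1) {a b : F} {k l : ℕ}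
    (e : Ev x = replicate k (φ a) + replicate l (φ b)) : 0 < k ∧ 0 < l := by
  constructor <;> refine Nat.pos_of_ne_zero ?_ <;> rintro rfl
  · exact hns b ((hx.eq_iff b).2 fun t ht => by rw [e] at ht; exact eq_of_mem_replicate (by simpa using ht))
  · exact hns a ((hx.eq_iff a).2 fun t ht => by rw [e] at ht; exact eq_of_mem_replicate (by simpa using ht))

theorem ssm_of_pow' {x : GL ι F} {m : ℕ} (hm : (m : F) ≠ 0) (h : x.1 ^ m = 1) : SSm x :=
  ⟨m, hm, Units.ext (by simpa using h)⟩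

/-- non-scalar involutions in dimension four are determined by their trace -/
theorem inv_four (h4 : Fintype.card ι = 4) (h2 : (2 : F) ≠ 0) {x : GL ι F} (hx : x.1 * x.1 = 1)
    (hns : ∀ c : F, x.1 ≠ c • 1) : ∃ k l : ℕ, k + l = 4 ∧ 0 < k ∧ 0 < l ∧ x.1.trace = k - l ∧
      Ev x = replicate k (φ 1) + replicate l (φ (-1)) := by
  have hs : SSm x := ssm_of_pow' (m := 2) h2 (by rw [sq, hx])
  obtain ⟨k, l, hkl, e⟩ := ev_two (x := x) (a := 1) (b := -1) (by
    simp [mul_add, sub_mul, hx])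
  obtain ⟨hk, hl⟩ := hs.pos_two hns e
  exact ⟨k, l, h4 ▸ hkl, hk, hl, by rw [hs.tr_two e]; ring, e⟩

theorem inv_four_tr (h4 : Fintype.card ι = 4) (h2 : (2 : F) ≠ 0) {x : GL ι F} (hx : x.1 * x.1 = 1)
    (hns : ∀ c : F, x.1 ≠ c • 1) : x.1.trace = 0 ∨ x.1.trace = 2 ∨ x.1.trace = -2 := by
  obtain ⟨k, l, h1, hk, hl, ht, -⟩ := inv_four h4 h2 hx hns
  have : k < 4 := by omega
  obtain rfl : l = 4 - k := by omega
  interval_cases k <;> rw [ht] <;> norm_num

theorem inv_four_eq (h4 : Fintype.card ι = 4) (h2 : (2 : F) ≠ 0) {x y : GL ι F}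
    (hx : x.1 * x.1 = 1) (hns : ∀ c : F, x.1 ≠ c • 1) (hy : y.1 * y.1 = 1)
    (hns' : ∀ c : F, y.1 ≠ c • 1) (h : x.1.trace = y.1.trace) : Ev x = Ev y := by
  obtain ⟨k, l, h1, hk, hl, ht, e⟩ := inv_four h4 h2 hx hns
  obtain ⟨k', l', h1', hk', hl', ht', e'⟩ := inv_four h4 h2 hy hns'
  have h4' : (4 : F) ≠ 0 := by rw [show (4 : F) = 2 * 2 by norm_num]; exact mul_ne_zero h2 h2
  have : k < 4 := by omega
  have : k' < 4 := by omega
  obtain rfl : l = 4 - k := by omega
  obtain rfl : l' = 4 - k' := by omega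
  rw [ht, ht'] at h
  rw [e, e']
  interval_cases k <;> interval_cases k' <;> first | rfl | (exfalso; norm_num at h; first
    | exact h2 h | exact h4' (by linear_combination h) | exact h4' (by linear_combination -h)
    | exact h2 (by linear_combination h) | exact h2 (by linear_combination -h))

theorem exists_omega (h3 : (3 : F) ≠ 0) : ∃ ω : K, ω ^ 2 + ω + 1 = 0 ∧ ω ≠ 1 := by
  obtain ⟨ω, hω⟩ := IsAlgClosed.exists_root (X ^ 2 + X + 1 : K[X]) (by
    rw [show (X ^ 2 + X + 1 : K[X]).degree = 2 by compute_degree!]; norm_num)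
  have h : ω ^ 2 + ω + 1 = 0 := by simpa using hω
  refine ⟨ω, h, fun h1 => castK (m := 3) h3 ?_⟩
  rw [h1] at h
  push_cast
  linear_combination h

theorem cube_cases {L : Type*} [Field L] {ω a : L} (h : ω ^ 2 + ω + 1 = 0) (ha : a ^ 3 = 1) :
    a = 1 ∨ a = ω ∨ a = ω ^ 2 := by
  have : (a - 1) * ((a - ω) * (a - ω ^ 2)) = 0 := by
    linear_combination ha + (-a ^ 2 + a * ω - ω + 1) * h
  simpa [sub_eq_zero] using this

/-- elements of order three in dimension four with rational characteristic polynomial -/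
theorem three_four (h4 : Fintype.card ι = 4) (h3 : (3 : F) ≠ 0) {x : GL ι F} (hx : x ^ 3 = 1)
    (h1 : x ≠ 1) (hsq : (Ev x).map (· ^ 2) = Ev x) {ω : K} (hω : ω ^ 2 + ω + 1 = 0) (hω1 : ω ≠ 1) :
    (x.1.trace = 1 ∧ Ev x = replicate 2 1 + replicate 1 ω + replicate 1 (ω ^ 2)) ∨
    (x.1.trace = -2 ∧ Ev x = replicate 0 1 + replicate 2 ω + replicate 2 (ω ^ 2)) := by
  classical
  have hs : SSm x := ⟨3, h3, hx⟩
  obtain ⟨k, l, n, e⟩ := rep3 fun a ha => cube_cases hω (hs.ev_root hx a ha)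
  have hω3 : ω ^ 3 = 1 := by linear_combination (ω - 1) * hω
  have hω0 : ω ≠ 0 := by rintro rfl; simp at hω
  have a1 : ω ^ 2 ≠ 1 := fun h => hω1 (by rw [pow_succ, h, one_mul] at hω3; exact hω3)
  have a2 : ω ^ 2 ≠ ω := fun h => hω1 (mul_left_cancel₀ hω0 (by rw [← sq, h, mul_one]))
  have hc := ev_card x
  rw [e, h4] at hc
  simp only [Multiset.card_add, card_replicate] at hc
  have hln : l = n := by
    have := congrArg (count ω) hsq
    rw [e] at this
    simp only [Multiset.map_add, map_replicate, one_pow, count_add, count_replicate,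
      show (ω ^ 2) ^ 2 = ω by linear_combination ω * hω3, if_neg a2, if_neg hω1.symm,
      if_true] at this
    omega
  subst hln
  have hl : l ≠ 0 := by
    rintro rfl
    apply h1
    apply Units.ext
    rw [Units.val_one, ← one_smul F (1 : Matrix ι ι F), hs.eq_iff]
    intro a ha
    rw [e] at ha
    rw [map_one]
    exact eq_of_mem_replicate (by simpa using ha)
  have ht := hs.ev_sum
  rcases (by omega : (k = 2 ∧ l = 1) ∨ (k = 0 ∧ l = 2)) with ⟨rfl, rfl⟩ | ⟨rfl, rfl⟩
  · refine .inl ⟨φ_inj ?_, e⟩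
    rw [ht, e]; simp; linear_combination hω
  · refine .inr ⟨φ_inj ?_, e⟩
    rw [ht, e]; simp [map_ofNat]; linear_combination 2 * hω

theorem three_four_eq (h4 : Fintype.card ι = 4) (h3 : (3 : F) ≠ 0) {x y : GL ι F} (hx : x ^ 3 = 1)
    (h1 : x ≠ 1) (hsq : (Ev x).map (· ^ 2) = Ev x) (hy : y ^ 3 = 1)
    (h1' : y ≠ 1) (hsq' : (Ev y).map (· ^ 2) = Ev y) (h : x.1.trace = y.1.trace) : Ev x = Ev y := by
  obtain ⟨ω, hω, hω1⟩ := exists_omega h3
  rcases three_four h4 h3 hx h1 hsq hω hω1 with ⟨a, b⟩ | ⟨a, b⟩ <;>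
    rcases three_four h4 h3 hy h1' hsq' hω hω1 with ⟨c, d⟩ | ⟨c, d⟩
  · rw [b, d]
  · exact absurd (by linear_combination h - a + c) h3
  · exact absurd (by linear_combination -h + a - c) h3
  · rw [b, d]

theorem five_four (h4 : Fintype.card ι = 4) (h5 : (5 : F) ≠ 0) {x : GL ι F} (hx : x ^ 5 = 1)
    (h1 : x ≠ 1) {s : ℕ} (hs5 : s % 5 = 2 ∨ s % 5 = 3) (hsq : ∀ a ∈ Ev x, a ^ s ∈ Ev x) :
    Ev x = (primitiveRoots 5 K).val := by
  classical
  have hs : SSm x := ⟨5, h5, hx⟩
  obtain ⟨ζ, hζ, hζ1⟩ : ∃ ζ ∈ Ev x, ζ ≠ 1 := by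
    by_contra! h
    apply h1
    apply Units.ext
    rw [Units.val_one, ← one_smul F (1 : Matrix ι ι F), hs.eq_iff]
    simpa using h
  have hζ5 := hs.ev_root hx ζ hζ
  haveI : Fact (Nat.Prime 5) := ⟨by norm_num⟩
  have hp : IsPrimitiveRoot ζ 5 := by
    rw [← orderOf_eq_prime hζ5 hζ1]; exact IsPrimitiveRoot.orderOf ζ
  have key : ∀ j, ζ ^ j ∈ Ev x → ζ ^ (j * (s % 5) % 5) ∈ Ev x := fun j hj => by
    have := hsq _ hj
    rwa [← pow_mul, pow_eq_pow_mod _ hζ5, Nat.mul_mod, ← Nat.mod_mod s 5, ← Nat.mul_mod] at this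
  have hall : ∀ j < 5, j ≠ 0 → ζ ^ j ∈ Ev x := by
    have e1 : ζ ^ 1 ∈ Ev x := by rwa [pow_one]
    have e2 := key _ e1
    have e3 := key _ e2
    have e4 := key _ e3
    intro j hj hj0
    rcases hs5 with h | h <;> rw [h] at e2 e3 e4 <;> norm_num at e2 e3 e4 <;> interval_cases j <;>
      first | contradiction | assumption
  symm
  refine Multiset.eq_of_le_of_card_le ((Multiset.le_iff_subset (primitiveRoots 5 K).nodup).2 ?_) ?_
  · intro b hb
    have hb' : IsPrimitiveRoot b 5 := (mem_primitiveRoots (by norm_num)).1 hb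
    obtain ⟨j, hj, rfl⟩ := hp.eq_pow_of_pow_eq_one hb'.pow_eq_one
    refine hall j hj ?_
    rintro rfl
    exact hb'.ne_one (by norm_num) (pow_zero _)
  · rw [ev_card, h4, Finset.card_val, hp.card_primitiveRoots]
    decide

theorem SSm.ev_inv {x : GL ι F} (hx : SSm x) {k : ℕ} (h : x ^ (k + 1) = 1) :
    Ev x⁻¹ = (Ev x).map (· ^ k) := by
  rw [← hx.ev_pow, inv_eq_of_mul_eq_one_left ((pow_succ x k).symm.trans h)]

theorem neg_four (h4 : Fintype.card ι = 4) (h2 : (2 : F) ≠ 0) {x : GL ι F} (hx : x.1 * x.1 = -1)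
    (hi : Ev x⁻¹ = Ev x) {i : K} (hi2 : i * i = -1) : Ev x = replicate 2 i + replicate 2 (-i) := by
  classical
  have hx4 : x ^ (3 + 1) = 1 := Units.ext (by
    rw [Units.val_pow_eq_pow_val, show 3 + 1 = 2 * 2 from rfl, pow_mul, sq x.1, hx]; simp)
  have h4' : ((4 : ℕ) : F) ≠ 0 := by
    rw [show ((4 : ℕ) : F) = 2 * 2 by norm_num]; exact mul_ne_zero h2 h2
  have hs : SSm x := ⟨4, h4', hx4⟩
  obtain ⟨k, l, e⟩ := rep2 (m := Ev x) (u := i) (v := -i) fun t ht => by
    have := ev_aeval (f := X ^ 2 + 1) (by simp [sq, hx]) ht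
    have h1 : (t - i) * (t + i) = 0 := by simp at this; linear_combination this - hi2
    simpa [sub_eq_zero, add_eq_zero_iff_eq_neg] using h1
  have hne : -i ≠ i := fun h => by
    have h1 : (2 : K) * i = 0 := by linear_combination -h
    rcases mul_eq_zero.1 h1 with h1 | h1
    · exact castK (m := 2) h2 h1
    · rw [h1] at hi2; simp at hi2
  have hc := ev_card x
  rw [hs.ev_inv hx4] at hi
  have := congrArg (count i) hi
  rw [e] at this
  rw [e, h4] at hc
  simp only [Multiset.map_add, map_replicate, count_add, count_replicate, if_neg hne, if_true,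
    show i ^ 3 = -i by linear_combination i * hi2,
    show (-i) ^ 3 = i by linear_combination -i * hi2] at this
  simp only [Multiset.card_add, card_replicate] at hc
  obtain rfl : k = 2 := by omega
  obtain rfl : l = 2 := by omega
  exact e

theorem inv_three (h3 : Fintype.card ι = 3) (h2 : (2 : F) ≠ 0) {x : GL ι F} (hx : x.1 * x.1 = 1)
    (h1 : x ≠ 1) (hd : x.1.det = 1) : Ev x = replicate 1 (φ 1) + replicate 2 (φ (-1)) := by
  have hs : SSm x := ssm_of_pow' (m := 2) h2 (by rw [sq, hx])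
  obtain ⟨k, l, hkl, e⟩ := ev_two (x := x) (a := 1) (b := -1) (by
    simp [mul_add, sub_mul, hx])
  have h4 := hs.ev_det
  rw [e, hd] at h4
  rw [h3] at hkl
  have h2' : (2 : K) ≠ 0 := castK (m := 2) h2
  have : l < 4 := by omega
  obtain rfl : k = 3 - l := by omega
  interval_cases l
  · refine absurd (Units.ext ?_) h1
    rw [Units.val_one, ← one_smul F (1 : Matrix ι ι F), hs.eq_iff]
    intro a ha
    rw [e] at ha
    simpa using ha
  · simp at h4; exact absurd (by linear_combination h4) h2'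
  · exact e
  · simp at h4; exact absurd (by linear_combination h4) h2'

theorem three_three (h3 : Fintype.card ι = 3) (h3' : (3 : F) ≠ 0) {x : GL ι F} (hx : x ^ 3 = 1)
    (hns : ∀ c : F, x.1 ≠ c • 1) {ω : F} (hω : ω ^ 2 + ω + 1 = 0) :
    Ev x = {1, φ ω, φ ω ^ 2} ∨ ∃ α : F, α ^ 3 = 1 ∧
      (Ev x = ({1, 1, φ ω} : Multiset K).map (φ α * ·) ∨
        Ev x = ({1, 1, φ ω ^ 2} : Multiset K).map (φ α * ·)) := by
  have hs : SSm x := ⟨3, h3', hx⟩
  have hω' : φ ω ^ 2 + φ ω + 1 = 0 := by simpa using congrArg φ hω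
  have hω3 : ω ^ 3 = 1 := by linear_combination (ω - 1) * hω
  have hω3' : φ ω ^ 3 = 1 := by rw [← map_pow, hω3, map_one]
  obtain ⟨k, l, n, e⟩ := rep3 fun a ha => cube_cases hω' (hs.ev_root hx a ha)
  have hc := ev_card x
  rw [e, h3] at hc
  simp only [Multiset.card_add, card_replicate] at hc
  have hne : ∀ c : F, ¬ ∀ a ∈ Ev x, a = φ c := fun c h => hns c ((hs.eq_iff c).2 h)
  have e1 : φ ω * φ ω ^ 2 = 1 := by linear_combination hω3'
  have e2 : φ ω ^ 2 * φ ω = 1 := by linear_combination hω3'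
  have e3 : φ ω ^ 2 * φ ω ^ 2 = φ ω := by linear_combination φ ω * hω3'
  have : k < 4 := by omega
  have : l < 4 := by omega
  obtain rfl : n = 3 - k - l := by omega
  rw [e] at hne ⊢
  interval_cases k <;> interval_cases l <;> try omega
  · exact absurd (by simp) (hne (ω ^ 2))
  · exact .inr ⟨ω ^ 2, by linear_combination (ω ^ 3 + 1) * hω3, .inr (by
      simp [e3, ← Multiset.cons_zero, Multiset.cons_swap, replicate_succ])⟩
  · exact .inr ⟨ω, hω3, .inl (by
      simp [← sq, ← Multiset.cons_zero, Multiset.cons_swap, replicate_succ])⟩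
  · exact absurd (by simp) (hne ω)
  · exact .inr ⟨ω ^ 2, by linear_combination (ω ^ 3 + 1) * hω3, .inl (by
      simp [e2, ← Multiset.cons_zero, Multiset.cons_swap, replicate_succ])⟩
  · exact .inl (by simp [← Multiset.cons_zero, Multiset.cons_swap, replicate_succ])
  · exact .inr ⟨ω, hω3, .inr (by
      simp [e1, ← Multiset.cons_zero, Multiset.cons_swap, replicate_succ])⟩
  · exact .inr ⟨1, one_pow _, .inr (by
      simp [← Multiset.cons_zero, Multiset.cons_swap, replicate_succ])⟩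
  · exact .inr ⟨1, one_pow _, .inl (by
      simp [← Multiset.cons_zero, Multiset.cons_swap, replicate_succ])⟩
  · exact absurd (by simp) (hne 1)

end Cfsg.Agent.H13.XE
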