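import Mathlib
import Cfsg.Agent.H13.XN3
import Cfsg.Agent.S3762

/-! Normalisers of symplectic-type 2-groups in dimension four. -/

set_option autoImplicit false

namespace Cfsg.Agent.H13.XE

open Module Polynomial Cfsg.Geo L0 H10 H11
open scoped MatrixGroups Matrix commutatorElement

variable {ι : Type} [Fintype ι] [DecidableEq ι] {F : Type*} [Field F]

theorem fix_modEq {G : Type*} [Group G] {D : Subgroup G} [Finite D] {g : G}
    (hg : ∀ e ∈ D, g * e * g⁻¹ ∈ D) {r : ℕ} [Fact r.Prime] (hr : ∀ e ∈ D, g ^ r * e = e * g ^ r) :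
    Nat.card D ≡ Nat.card ↥(D ⊓ Subgroup.centralizer {g}) [MOD r] := by
  classical
  haveI := Fintype.ofFinite D
  let f : Function.End D := fun e => ⟨g * e * g⁻¹, hg e e.2⟩
  have hf : ∀ (k : ℕ) (e : D), ((f ^ k) e : G) = g ^ k * e * (g ^ k)⁻¹ := by
    intro k
    induction k with
    | zero => intro e; rw [pow_zero, pow_zero, one_mul, inv_one, mul_one]; rfl
    | succ k ih =>
      intro e
      rw [pow_succ, show (f ^ k * f) e = (f ^ k) (f e) from rfl, ih, pow_succ]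
      simp [f, mul_assoc]
  have h1 := Equiv.Perm.card_fixedPoints_modEq (f := f) (p := r) (n := 1) (by
    funext e
    apply Subtype.ext
    rw [pow_one, hf, hr e e.2, mul_inv_cancel_right]
    rfl)
  rw [← Nat.card_eq_fintype_card, ← Nat.card_eq_fintype_card] at h1
  convert h1 using 1
  refine Nat.card_congr ⟨fun e => ⟨⟨e.1, e.2.1⟩, Subtype.ext ?_⟩, fun e => ⟨e.1.1, e.1.2, ?_⟩,
    fun _ => rfl, fun _ => rfl⟩
  · have := Subgroup.mem_centralizer_singleton_iff.1 e.2.2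
    change g * e.1 * g⁻¹ = e.1
    rw [← this]; simp
  · have : g * e.1.1 * g⁻¹ = e.1.1 := congrArg Subtype.val e.2
    refine Subgroup.mem_centralizer_singleton_iff.2 ?_
    conv_lhs => rw [← this]
    simp

theorem scalar_iff {x : GL ι F} [Nonempty ι] : x ∈ scalars ι F ↔ ∃ c : F, x.1 = c • 1 := by
  rw [mem_scalars_iff]
  refine ⟨fun ⟨c, h⟩ => ⟨c, h⟩, fun ⟨c, hc⟩ => ⟨Units.mk0 c ?_, hc⟩⟩
  rintro rfl
  have := Matrix.GeneralLinearGroup.det_ne_zero x
  rw [hc] at this
  simp at this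

theorem trace_zero_of {A B C : Matrix ι ι F} {z : F} (hz : z ≠ 1) (h : A * B = z • (B * A))
    (hC : B * C = 1) : A.trace = 0 := by
  have h1 : A.trace = z * A.trace := by
    conv_lhs => rw [← mul_one A, ← hC, ← mul_assoc, h, smul_mul_assoc, Matrix.trace_smul,
      Matrix.trace_mul_cycle, mul_eq_one_comm.1 hC, one_mul]
    rfl
  have : (1 - z) * A.trace = 0 := by linear_combination h1
  exact (mul_eq_zero.1 this).resolve_left (sub_ne_zero.2 hz.symm)

theorem CF.nc {r : ℕ} {M : Subgroup (GL ι F)} (h : CF r M) {x : GL ι F} (hx : x ∈ M)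
    (hxs : x ∉ scalars ι F) : ∃ y ∈ M, ∃ z : Fˣ, z ^ r = 1 ∧ z ≠ 1 ∧ x * y = sc ι z * (y * x) := by
  obtain ⟨y, hy, hxy⟩ : ∃ y ∈ M, x * y ≠ y * x := by
    by_contra! h'
    exact hxs (h.cent x h')
  obtain ⟨z, hz, hz'⟩ := h.comm x hx y hy
  exact ⟨y, hy, z, hz, fun h1 => hxy (by rw [hz', h1, map_one, one_mul]), hz'⟩

theorem coe_sc_mul (z : Fˣ) (x : GL ι F) : (sc ι z * x).1 = (z : F) • x.1 := by
  rw [Units.val_mul, sc_coe, smul_mul_assoc, one_mul]

theorem CF.tr_zero {r : ℕ} {M : Subgroup (GL ι F)} (h : CF r M) {x : GL ι F} (hx : x ∈ M)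
    (hxs : x ∉ scalars ι F) : x.1.trace = 0 := by
  obtain ⟨y, -, z, -, hz1, hz⟩ := h.nc hx hxs
  have := congrArg Units.val hz
  rw [coe_sc_mul] at this
  exact trace_zero_of (fun e => hz1 (Units.ext e)) this y.mul_inv

theorem trace_formula [Nonempty ι] {r₀ : ℕ} {R : Subgroup (GL ι F)} [Finite R] (h : CF r₀ R)
    (hc : ∀ M : Matrix ι ι F, (∀ s ∈ matrixSet R, M * s = s * M) → ∃ c : F, M = c • 1)
    {g : GL ι F} (hg : g ∈ Subgroup.normalizer (R : Set (GL ι F))) {r : ℕ} {z : Fˣ}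
    (hz : g ^ r = sc ι z) (hcop : (Nat.card R).Coprime r) :
    (Fintype.card ι : F) ^ 2 * Nat.card ↥(R ⊓ Subgroup.centralizer {g}) =
      Nat.card R * (g.1.trace * (g⁻¹).1.trace) := by
  classical
  haveI := Fintype.ofFinite R
  obtain ⟨c, hS⟩ := hc (∑ e : R, (e.1 * g⁻¹ * e.1⁻¹).1) (by
    rintro _ ⟨y, hy, rfl⟩
    rw [Finset.sum_mul, Finset.mul_sum]
    refine Fintype.sum_equiv (Equiv.mulLeft (⟨y, hy⟩ : R)⁻¹) _ _ fun e => ?_
    simp only [← Units.val_mul]
    congr 1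
    simp [mul_assoc])
  have h1 := congrArg Matrix.trace hS
  rw [Matrix.trace_sum, Finset.sum_congr rfl (fun (e : R) _ =>
    show (e.1 * g⁻¹ * e.1⁻¹).1.trace = (g⁻¹).1.trace from Matrix.trace_units_conj _ _)] at h1
  simp only [Finset.sum_const, Finset.card_univ, nsmul_eq_mul, Matrix.trace_smul, Matrix.trace_one,
    smul_eq_mul] at h1
  have h2 := congrArg (fun M => (g.1 * M).trace) hS
  simp only [Finset.mul_sum, Matrix.trace_sum, mul_smul_comm, mul_one, Matrix.trace_smul,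
    smul_eq_mul] at h2
  have h3 : ∀ e : R, (g.1 * (e.1 * g⁻¹ * e.1⁻¹).1).trace =
      if e.1 * g = g * e.1 then (Fintype.card ι : F) else 0 := by
    intro e
    split_ifs with he
    · rw [← Units.val_mul, ← mul_assoc, ← mul_assoc, ← he]
      simp
    · rw [← Units.val_mul]
      have hm : g * (e.1 * g⁻¹ * e.1⁻¹) ∈ R := by
        rw [← mul_assoc, ← mul_assoc]
        exact R.mul_mem ((Subgroup.mem_normalizer_iff.1 hg e).1 e.2) (R.inv_mem e.2)
      refine h.tr_zero hm ?_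
      rintro ⟨t, ht⟩
      change sc ι t = _ at ht
      have e1 : g * e.1 = sc ι t * (e.1 * g) := by rw [ht]; group
      have e2 := H26.pow_mul_class2 e1 (sc_comm t) r
      rw [hz, sc_comm z, ← map_pow] at e2
      have e3 : t ^ r = 1 := sc_inj (ι := ι) (by
        rw [map_one]; exact mul_right_cancel (e2.symm.trans (one_mul _).symm))
      have e4 : t ^ Nat.card R = 1 := sc_inj (ι := ι) (by
        rw [map_one, map_pow, ht]
        exact congrArg Subtype.val (pow_card_eq_one' (x := (⟨_, hm⟩ : R))))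
      have e5 : t = 1 := (pow_eq_one_iff_of_coprime hcop).1 ⟨e4, e3⟩
      exact he (by rw [e1, e5, map_one, one_mul])
  simp only [h3] at h2
  rw [← Finset.sum_filter, Finset.sum_const, nsmul_eq_mul] at h2
  have h4 : Nat.card ↥(R ⊓ Subgroup.centralizer {g}) =
      (Finset.univ.filter fun e : R => e.1 * g = g * e.1).card := by
    rw [← Fintype.card_subtype, ← Nat.card_eq_fintype_card]
    exact Nat.card_congr ⟨fun e => ⟨⟨e.1, e.2.1⟩, Subgroup.mem_centralizer_singleton_iff.1 e.2.2⟩,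
      fun e => ⟨e.1.1, e.1.2, Subgroup.mem_centralizer_singleton_iff.2 e.2⟩, fun _ => rfl,
      fun _ => rfl⟩
  rw [h4, Nat.card_eq_fintype_card]
  linear_combination (Fintype.card ι : F) * h2 - g.1.trace * h1

theorem form_facts [Nonempty ι] {r : ℕ} {M : Subgroup (GL ι F)} (h : CF r M) :
    ∃ B : M →* M →* Fˣ, (∀ x y, B x y ^ r = 1) ∧
      (∀ x y : M, (x * y : GL ι F) = sc ι (B x y) * (y * x)) ∧
      (∀ x y : M, B x y = 1 ↔ (x * y : GL ι F) = y * x) ∧ ∀ x y, B x y * B y x = 1 := by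
  obtain ⟨B, h1, hB⟩ := h.exists_form
  refine ⟨B, h1, hB, fun x y => ⟨fun e => by rw [hB, e, map_one, one_mul], fun e => ?_⟩,
    fun x y => ?_⟩
  · apply sc_inj (ι := ι)
    rw [map_one]
    exact mul_right_cancel ((hB x y).symm.trans (e.trans (one_mul _).symm))
  · have h1 := hB x y
    rw [hB y x, ← mul_assoc, ← map_mul] at h1
    apply sc_inj (ι := ι)
    rw [map_one]
    exact mul_right_cancel (h1.symm.trans (one_mul _).symm)

theorem sq_cases {z : Fˣ} (h : z ^ 2 = 1) : z = 1 ∨ z = -1 := by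
  have : (z : F) ^ 2 = 1 := by rw [← Units.val_pow_eq_pow_val, h, Units.val_one]
  rcases sq_eq_one_iff.1 this with h | h
  exacts [.inl (Units.ext h), .inr (Units.ext h)]

theorem conj_comm {G : Type*} [Group G] {g a e : G} (hga : a * g = g * a) (h : e * a = a * e) :
    g * e * g⁻¹ * a = a * (g * e * g⁻¹) := by
  have : g⁻¹ * a = a * g⁻¹ := by rw [inv_mul_eq_iff_eq_mul, ← mul_assoc, ← hga]; simp
  rw [mul_assoc, this, ← mul_assoc, mul_assoc g, h, ← mul_assoc, ← hga]
  simp only [mul_assoc]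

theorem index_comm_two [Nonempty ι] {R : Subgroup (GL ι F)} (h : CF 2 R) {a : GL ι F} (ha : a ∈ R)
    (has : a ∉ scalars ι F) :
    Nat.card R = 2 * Nat.card ↥(R ⊓ Subgroup.centralizer {a}) := by
  obtain ⟨B, h1, -, h3, -⟩ := form_facts h
  obtain ⟨y, hy, hay⟩ : ∃ y ∈ R, a * y ≠ y * a := by
    by_contra! h'
    exact has (h.cent a h')
  have hm : ∀ e : R, e ∈ (Subgroup.centralizer {a}).subgroupOf R ↔ B ⟨a, ha⟩ e = 1 := fun e => by
    rw [Subgroup.mem_subgroupOf, Subgroup.mem_centralizer_singleton_iff, h3]; exact eq_comm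
  have hy1 : B ⟨a, ha⟩ ⟨y, hy⟩ = -1 :=
    (sq_cases (h1 _ _)).resolve_left fun e => hay ((h3 _ _).1 e)
  have hne : (-1 : Fˣ) ≠ 1 := fun e => hay ((h3 ⟨a, ha⟩ ⟨y, hy⟩).1 (hy1.trans e))
  have hi : ((Subgroup.centralizer {a}).subgroupOf R).index = 2 := by
    refine Subgroup.index_eq_two_iff'.2 ⟨⟨y, hy⟩, fun b => ?_⟩
    rw [hm, hm, map_mul, hy1]
    rcases sq_cases (h1 ⟨a, ha⟩ b) with e | e <;> rw [e] <;> simp [hne]
  rw [← ((Subgroup.centralizer {a}).subgroupOf R).index_mul_card, hi, inf_comm,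
    ← Subgroup.inf_subgroupOf_right,
    Nat.card_congr (Subgroup.subgroupOfEquivOfLe inf_le_right).toEquiv]

theorem n4 [Nonempty ι] {R : Subgroup (GL ι F)} [Finite R] (h : CF 2 R)
    (hc : ∀ M : Matrix ι ι F, (∀ s ∈ matrixSet R, M * s = s * M) → ∃ c : F, M = c • 1)
    (h4 : Fintype.card ι = 4) (h2 : (2 : F) ≠ 0) {j : ℕ}
    (hZ : Nat.card ↥(R ⊓ scalars ι F) = 2 ^ j) (hR : Nat.card R = 2 ^ j * 16)
    {g : GL ι F} (hg : g ∈ Subgroup.normalizer (R : Set (GL ι F))) {r : ℕ} [hr : Fact r.Prime]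
    (hr2 : r ≠ 2) {z : Fˣ} (hz : g ^ r = sc ι z) (hns : g ∉ scalars ι F) :
    (r = 3 ∨ r = 5) ∧ (r = 5 → g.1.trace * (g⁻¹).1.trace = 1) ∧
      (r = 3 → g.1.trace * (g⁻¹).1.trace = 4 ∨ (g.1.trace * (g⁻¹).1.trace = 1 ∧
        ∀ e ∈ R, e * g = g * e → e ∈ scalars ι F)) := by
  have hc2 : Nat.Coprime 2 r := (Nat.coprime_primes Nat.prime_two hr.out).2 hr2.symm
  have hcop : (Nat.card R).Coprime r := by
    rw [hR, show 2 ^ j * 16 = 2 ^ (j + 4) by ring]
    exact hc2.pow_left _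
  set C := R ⊓ Subgroup.centralizer {g} with hC
  have hZC : R ⊓ scalars ι F ≤ C := by
    rintro _ ⟨h1, t, rfl⟩
    exact ⟨h1, Subgroup.mem_centralizer_singleton_iff.2 (sc_comm t g)⟩
  haveI : Finite C := Finite.of_injective _ (Subgroup.inclusion_injective (inf_le_left : C ≤ R))
  haveI : Finite ↥(R ⊓ scalars ι F) := Finite.of_injective _ (Subgroup.inclusion_injective hZC)
  obtain ⟨m, hm⟩ := Subgroup.card_dvd_of_le hZC
  rw [hZ] at hm
  have hmd : m ∣ 16 := by
    have := Subgroup.card_dvd_of_le (inf_le_left : C ≤ R)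
    rwa [hm, hR, Nat.mul_dvd_mul_iff_left (by positivity)] at this
  have hnorm : ∀ e ∈ R, g * e * g⁻¹ ∈ R := fun e he => (Subgroup.mem_normalizer_iff.1 hg e).1 he
  have hpow : ∀ e, g ^ r * e = e * g ^ r := fun e => by rw [hz, sc_comm]
  have hmod := fix_modEq hnorm (r := r) fun e _ => hpow e
  rw [← hC, hm, hR] at hmod
  have hm16 : m ≠ 16 := by
    rintro rfl
    have : C = R := Subgroup.eq_of_le_of_card_ge inf_le_left (by rw [hm, hR])
    exact hns (h.cent g fun y hy =>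
      (Subgroup.mem_centralizer_singleton_iff.1 ((this ▸ hy : y ∈ C).2)).symm)
  have hmle := Nat.le_of_dvd (by norm_num) hmd
  have hdvd : r ∣ 16 - m := by
    have := (Nat.modEq_iff_dvd' (Nat.mul_le_mul_left _ hmle)).1 hmod.symm
    rw [← Nat.mul_sub] at this
    exact (hc2.symm.pow_right j).dvd_of_dvd_mul_left this
  have htr := trace_formula h hc hg hz hcop
  rw [← hC, hm, hR, h4] at htr
  have htr' : g.1.trace * (g⁻¹).1.trace = m := by
    have h0 : (2 : F) ^ j * 2 ^ 4 ≠ 0 := mul_ne_zero (pow_ne_zero _ h2) (pow_ne_zero _ h2)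
    apply mul_left_cancel₀ h0
    generalize g.1.trace * (g⁻¹).1.trace = t at htr ⊢
    push_cast at htr
    linear_combination -htr
  have hm2 : m ≠ 2 := by
    rintro rfl
    obtain ⟨a, ha, has⟩ : ∃ a ∈ C, a ∉ scalars ι F := by
      by_contra! h'
      have := Subgroup.card_le_of_le (show C ≤ R ⊓ scalars ι F from fun a ha => ⟨ha.1, h' a ha⟩)
      rw [hm, hZ] at this
      have : 0 < 2 ^ j := by positivity
      omega
    have hidx : ((R ⊓ scalars ι F).subgroupOf C).index = 2 := by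
      have := ((R ⊓ scalars ι F).subgroupOf C).index_mul_card
      rw [Nat.card_congr (Subgroup.subgroupOfEquivOfLe hZC).toEquiv, hZ, hm, mul_comm] at this
      exact Nat.eq_of_mul_eq_mul_left (by positivity) this
    have hab : ∀ b ∈ C, b * a = a * b := by
      intro b hb
      by_cases hbs : b ∈ scalars ι F
      · obtain ⟨t, rfl⟩ := hbs
        exact sc_comm t a
      · have := (Subgroup.mul_mem_iff_of_index_two hidx (a := ⟨a, ha⟩) (b := ⟨b, hb⟩)).2
          (iff_of_false (fun e => has e.2) fun e => hbs e.2)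
        obtain ⟨t, ht⟩ := this.2
        change sc ι t = a * b at ht
        have e1 := sc_comm t a
        rw [ht, mul_assoc] at e1
        exact mul_left_cancel e1
    set D := R ⊓ Subgroup.centralizer {a} with hD
    haveI : Finite D := Finite.of_injective _ (Subgroup.inclusion_injective (inf_le_left : D ≤ R))
    have hga := Subgroup.mem_centralizer_singleton_iff.1 ha.2
    have h5 := fix_modEq (D := D) (g := g) (fun e he => ⟨hnorm e he.1,
      Subgroup.mem_centralizer_singleton_iff.2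
        (conj_comm hga (Subgroup.mem_centralizer_singleton_iff.1 he.2))⟩) (r := r)
      fun e _ => hpow e
    have h6 : D ⊓ Subgroup.centralizer {g} = C := le_antisymm (fun e he => ⟨he.1.1, he.2⟩)
      fun e he => ⟨⟨he.1, Subgroup.mem_centralizer_singleton_iff.2 (hab e he)⟩, he.2⟩
    have h7 := index_comm_two h ha.1 has
    rw [← hD, hR] at h7
    rw [h6, hm, show Nat.card D = 2 ^ j * 8 by omega] at h5
    have h8 := (Nat.modEq_iff_dvd' (by omega)).1 h5.symm
    rw [← Nat.mul_sub] at h8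
    have h9 := (hc2.symm.pow_right j).dvd_of_dvd_mul_left h8
    have := Nat.dvd_gcd hdvd h9
    norm_num at this
    exact hr2 ((Nat.prime_dvd_prime_iff_eq hr.out Nat.prime_two).1 this)
  have hr' := hr.out
  have hcases : m = 1 ∨ m = 4 ∨ m = 8 := by
    interval_cases m <;> simp_all
  rcases hcases with rfl | rfl | rfl
  · have hall : ∀ e ∈ R, e * g = g * e → e ∈ scalars ι F := by
      have : R ⊓ scalars ι F = C := Subgroup.eq_of_le_of_card_ge hZC (by rw [hm, hZ]; simp)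
      intro e he heg
      exact (this ▸ (⟨he, Subgroup.mem_centralizer_singleton_iff.2 heg⟩ : e ∈ C) :
        e ∈ R ⊓ scalars ι F).2
    refine ⟨?_, fun _ => by simpa using htr', fun _ => .inr ⟨by simpa using htr', hall⟩⟩
    rcases (Nat.Prime.dvd_mul hr' (m := 3) (n := 5)).1 hdvd with e | e
    · exact .inl ((Nat.prime_dvd_prime_iff_eq hr' Nat.prime_three).1 e)
    · exact .inr ((Nat.prime_dvd_prime_iff_eq hr' Nat.prime_five).1 e)
  · have e3 : r = 3 := (Nat.prime_dvd_prime_iff_eq hr' Nat.prime_three).1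
      ((hc2.symm.pow_right 2).dvd_of_dvd_mul_left hdvd)
    exact ⟨.inl e3, fun e => by omega, fun _ => .inl (by simpa using htr')⟩
  · exact absurd ((Nat.prime_dvd_prime_iff_eq hr' Nat.prime_two).1
      (hr'.dvd_of_dvd_pow (n := 3) hdvd)) hr2

theorem cent_of_irr [Nonempty ι] {R : Subgroup (GL ι F)}
    (hirr : ActsAbsolutelyIrreducibly (matrixSet R)) (x : GL ι F) (hx : ∀ y ∈ R, x * y = y * x) :
    x ∈ scalars ι F := scalar_iff.2 (hirr.2 x (by
  rintro _ ⟨y, hy, rfl⟩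
  rw [← Units.val_mul, hx y hy, Units.val_mul]))

theorem card_inf_scalars [Nonempty ι] {R : Subgroup (GL ι F)}
    (hc : ∀ x : GL ι F, (∀ y ∈ R, x * y = y * x) → x ∈ scalars ι F) :
    Nat.card ↥(R ⊓ scalars ι F) = Nat.card (Subgroup.center R) := by
  have : Subgroup.center R = (R ⊓ scalars ι F).subgroupOf R := by
    ext x
    rw [Subgroup.mem_center_iff, Subgroup.mem_subgroupOf]
    refine ⟨fun h => ⟨x.2, hc x fun y hy => (congrArg Subtype.val (h ⟨y, hy⟩)).symm⟩, ?_⟩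
    rintro ⟨-, t, ht⟩ y
    apply Subtype.ext
    change sc ι t = _ at ht
    rw [Subgroup.coe_mul, Subgroup.coe_mul, ← ht, sc_comm]
  rw [this, Nat.card_congr (Subgroup.subgroupOfEquivOfLe inf_le_left).toEquiv]

theorem cf_of_sympl [Nonempty ι] {R : Subgroup (GL ι F)} [Finite R]
    (hs : IsSymplecticTypeGroup 2 R) (hirr : ActsAbsolutelyIrreducibly (matrixSet R)) :
    CF 2 R ∧ ∀ x ∈ R, x ^ 4 = 1 := by
  have hexp : Monoid.exponent R = 4 := hs.exponent_eq
  have h4 : ∀ x : R, x ^ 4 = 1 := fun x => hexp ▸ Monoid.pow_exponent_eq_one x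
  refine ⟨⟨?_, cent_of_irr hirr⟩, fun x hx => congrArg Subtype.val (h4 ⟨x, hx⟩)⟩
  obtain ⟨E, R₀, hER, hsup, hE, hR₀⟩ := S3762.result hs.pGroup hs.cyclic_of_characteristic
  have hord : ∀ x : R₀, orderOf x ≤ 4 := fun x =>
    Nat.le_of_dvd (by norm_num) (orderOf_dvd_of_pow_eq_one (Subtype.ext (h4 x)))
  have hcyc : IsCyclic R₀ := by
    rcases hR₀ with h | ⟨-, h16, ⟨m, ⟨e⟩⟩ | ⟨m, ⟨e⟩⟩ | ⟨n, hn, -, x, -, hx, -⟩⟩
    · exact h
    · have h1 := hord (e.symm (.r 1))
      rw [MulEquiv.orderOf_eq, DihedralGroup.orderOf_r_one] at h1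
      rw [Nat.card_congr e.toEquiv, DihedralGroup.nat_card] at h16
      omega
    · have h1 := hord (e.symm (.a 1))
      rw [MulEquiv.orderOf_eq, QuaternionGroup.orderOf_a_one] at h1
      rw [Nat.card_congr e.toEquiv] at h16
      rcases Nat.eq_zero_or_pos m with rfl | hm
      · have h2 := orderOf_pos (e.symm (.a 1))
        rw [MulEquiv.orderOf_eq, QuaternionGroup.orderOf_a_one] at h2
        omega
      · haveI : NeZero m := ⟨hm.ne'⟩
        rw [Nat.card_eq_fintype_card, QuaternionGroup.card] at h16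
        omega
    · have h1 := hord x
      have : 2 ^ 3 ≤ 2 ^ n := Nat.pow_le_pow_right (by norm_num) hn
      omega
  have hcen : ∀ s ∈ R₀, ∀ y : R, s * y = y * s := by
    intro s hs y
    have : E ⊔ R₀ ≤ Subgroup.centralizer {s} := sup_le
      (fun e he => Subgroup.mem_centralizer_singleton_iff.2 (hER e he s hs))
      fun t ht => Subgroup.mem_centralizer_singleton_iff.2
        (congrArg Subtype.val (hcyc.commGroup.mul_comm ⟨t, ht⟩ ⟨s, hs⟩))
    exact (Subgroup.mem_centralizer_singleton_iff.1 (this (hsup ▸ Subgroup.mem_top y))).symm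
  haveI : R₀.Normal := ⟨fun s hs y => by rw [← hcen s hs y]; simpa using hs⟩
  have hdec : ∀ x : R, ∃ e ∈ E, ∃ s ∈ R₀, e * s = x := fun x => by
    have : x ∈ ((E ⊔ R₀ : Subgroup R) : Set R) := hsup ▸ Subgroup.mem_top x
    rw [Subgroup.mul_normal] at this
    exact this
  have hw : ∀ e ∈ E, ∀ f ∈ E, ∃ w : R, (∀ y : R, w * y = y * w) ∧ w ^ 2 = 1 ∧
      e * f = w * (f * e) := by
    intro e he f hf
    rcases hE with rfl | ⟨⟨-, -, hcom⟩, hZ⟩
    · obtain rfl : e = 1 := he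
      exact ⟨1, by simp, by simp, by simp⟩
    · have h1 : ⁅(⟨e, he⟩ : E), (⟨f, hf⟩ : E)⁆ ∈ Subgroup.center E :=
        hcom ▸ Subgroup.commutator_mem_commutator (Subgroup.mem_top _) (Subgroup.mem_top _)
      refine ⟨(⁅(⟨e, he⟩ : E), (⟨f, hf⟩ : E)⁆ : E), fun y => ?_, ?_, ?_⟩
      · obtain ⟨a, ha, s, hs, rfl⟩ := hdec y
        have h2 := congrArg Subtype.val (Subgroup.mem_center_iff.1 h1 ⟨a, ha⟩)
        simp only [Subgroup.coe_mul] at h2
        rw [← mul_assoc, ← h2, mul_assoc, ← hcen s hs, mul_assoc]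
      · have := pow_card_eq_one' (G := Subgroup.center E) (x := ⟨_, h1⟩)
        rw [hZ] at this
        exact congrArg (fun t : Subgroup.center E => ((t : E) : R)) this
      · simp [commutatorElement_def, mul_assoc]
  intro x hx y hy
  obtain ⟨e, he, s, hs, e1⟩ := hdec ⟨x, hx⟩
  obtain ⟨f, hf, t, ht, e2⟩ := hdec ⟨y, hy⟩
  obtain ⟨w, hw1, hw2, hw3⟩ := hw e he f hf
  obtain ⟨z, hz⟩ := mem_scalars.1 (cent_of_irr hirr w fun y hy => congrArg Subtype.val (hw1 ⟨y, hy⟩))
  refine ⟨z, sc_inj (ι := ι) (by rw [map_pow, hz, map_one]; exact congrArg Subtype.val hw2), ?_⟩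
  have : (⟨x, hx⟩ : R) * ⟨y, hy⟩ = w * (⟨y, hy⟩ * ⟨x, hx⟩) := by
    rw [← e1, ← e2, mul_assoc, ← mul_assoc s, hcen s hs f, mul_assoc f, ← mul_assoc e, hw3,
      mul_assoc f, ← mul_assoc t, hcen t ht e, mul_assoc e, hcen t ht s]
    simp only [mul_assoc]
  rw [hz]
  exact congrArg Subtype.val this

end Cfsg.Agent.H13.XE
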