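import Mathlib
import Cfsg.Agent.H13.XN4

/-! Generators of symplectic-type 2-groups in dimension four; elements of the normaliser. -/

set_option autoImplicit false

namespace Cfsg.Agent.H13.XE

open Module Polynomial Cfsg.Geo L0 H10 H11
open scoped MatrixGroups Matrix commutatorElement

variable {ι : Type} [Fintype ι] [DecidableEq ι] {F : Type*} [Field F]

theorem CF.comm_or [Nonempty ι] {R : Subgroup (GL ι F)} (h : CF 2 R) {x y : GL ι F} (hx : x ∈ R)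
    (hy : y ∈ R) : y.1 * x.1 = x.1 * y.1 ∨ y.1 * x.1 = -(x.1 * y.1) := by
  obtain ⟨z, hz, e⟩ := h.comm y hy x hx
  have := congrArg Units.val e
  rw [coe_sc_mul] at this
  rcases sq_cases hz with rfl | rfl
  · exact .inl (by simpa using this)
  · exact .inr (by simpa using this)

theorem CF.exists_anti [Nonempty ι] {R : Subgroup (GL ι F)} (h : CF 2 R) {x : GL ι F} (hx : x ∈ R)
    (hxs : x ∉ scalars ι F) : ∃ y ∈ R, y.1 * x.1 = -(x.1 * y.1) := by
  by_contra! h'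
  exact hxs (h.cent x fun y hy => Units.ext ((h.comm_or hx hy).resolve_right (h' y hy)).symm)

theorem CF.sq [Nonempty ι] {R : Subgroup (GL ι F)} (h : CF 2 R) (h4 : ∀ x ∈ R, x ^ 4 = 1)
    {x : GL ι F} (hx : x ∈ R) : x.1 * x.1 = 1 ∨ x.1 * x.1 = -1 := by
  obtain ⟨z, hz⟩ := mem_scalars.1 (h.cent (x * x) fun y hy => Units.ext (by
    simp only [Units.val_mul]
    rcases h.comm_or hx hy with e | e
    · rw [mul_assoc, ← e, ← mul_assoc, ← e, mul_assoc]
    · have e' : x.1 * y.1 = -(y.1 * x.1) := by rw [e, neg_neg]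
      rw [mul_assoc, e', mul_neg, ← mul_assoc, e', neg_mul, neg_neg, mul_assoc]))
  have h1 : z ^ 2 = 1 := sc_inj (ι := ι) (by
    rw [map_pow, hz, map_one, ← h4 x hx, ← pow_two, ← pow_mul])
  have h2 := congrArg Units.val hz
  rw [sc_coe] at h2
  rcases sq_cases h1 with rfl | rfl
  · exact .inl (by simpa using h2.symm)
  · exact .inr (by simpa using h2.symm)

theorem exists_quad [Nonempty ι] {R : Subgroup (GL ι F)} [Finite R] (h : CF 2 R) {j : ℕ}
    (hZ : Nat.card ↥(R ⊓ scalars ι F) = 2 ^ j) (hR : Nat.card R = 2 ^ j * 16) :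
    ∃ a ∈ R, ∃ b ∈ R, ∃ c ∈ R, ∃ d ∈ R, b.1 * a.1 = -(a.1 * b.1) ∧ d.1 * c.1 = -(c.1 * d.1) ∧
      c.1 * a.1 = a.1 * c.1 ∧ c.1 * b.1 = b.1 * c.1 ∧ d.1 * a.1 = a.1 * d.1 ∧
      d.1 * b.1 = b.1 * d.1 := by
  haveI : Finite ↥(R ⊓ scalars ι F) :=
    Finite.of_injective _ (Subgroup.inclusion_injective inf_le_left)
  have hj : 0 < 2 ^ j := by positivity
  have key : ∀ D ≤ R, 2 ^ j < Nat.card D → ∃ c ∈ D, c ∉ scalars ι F := by
    intro D hD hlt
    by_contra! h'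
    have := Subgroup.card_le_of_le (show D ≤ R ⊓ scalars ι F from fun a ha => ⟨hD ha, h' a ha⟩)
    omega
  obtain ⟨a, ha, has⟩ := key R le_rfl (by omega)
  obtain ⟨b, hb, hba⟩ := h.exists_anti ha has
  by_cases hbs : b ∈ scalars ι F
  · -- then `-1 = 1`
    obtain ⟨t, rfl⟩ := mem_scalars.1 hbs
    have e1 := congrArg Units.val (sc_comm t a)
    simp only [Units.val_mul] at e1
    refine absurd (h.cent a fun y hy => Units.ext ?_) has
    have e2 : ∀ M : Matrix ι ι F, -M = M := fun M => by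
      have e3 : (-1 : Matrix ι ι F) = 1 := by
        have : (a * sc ι t).1 = -1 * (a * sc ι t).1 := by
          rw [neg_one_mul, Units.val_mul, ← hba, e1]
        exact ((Units.mul_left_inj _).1 (this.symm.trans (one_mul _).symm))
      rw [← neg_one_mul, e3, one_mul]
    rcases h.comm_or ha hy with e | e
    · exact e.symm
    · rw [e2] at e; exact e.symm
  have i1 := index_comm_two h ha has
  have i2 := index_comm_two h hb hbs
  set A := R ⊓ Subgroup.centralizer {a}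
  set B := R ⊓ Subgroup.centralizer {b}
  have hAR : A ≤ R := inf_le_left
  have hBR : B ≤ R := inf_le_left
  have hidx : ∀ D ≤ R, (D.subgroupOf R).index * Nat.card D = 2 ^ j * 16 := fun D hD => by
    rw [← Nat.card_congr (Subgroup.subgroupOfEquivOfLe hD).toEquiv, Subgroup.index_mul_card, hR]
  have iA : (A.subgroupOf R).index = 2 := by
    have := hidx A hAR
    rw [show Nat.card A = 2 ^ j * 8 by omega] at this
    nlinarith
  have iB : (B.subgroupOf R).index = 2 := by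
    have := hidx B hBR
    rw [show Nat.card B = 2 ^ j * 8 by omega] at this
    nlinarith
  have i4 := hidx (A ⊓ B) (inf_le_left.trans hAR)
  obtain ⟨c, hc, hcs⟩ := key (A ⊓ B) (inf_le_left.trans hAR) (by
    have : ((A ⊓ B).subgroupOf R).index ≤ 4 := by
      have := Subgroup.index_inf_le (H := A.subgroupOf R) (K := B.subgroupOf R)
      rwa [iA, iB] at this
    nlinarith)
  have hca : c.1 * a.1 = a.1 * c.1 :=
    congrArg Units.val (Subgroup.mem_centralizer_singleton_iff.1 hc.1.2)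
  have hcb : c.1 * b.1 = b.1 * c.1 :=
    congrArg Units.val (Subgroup.mem_centralizer_singleton_iff.1 hc.2.2)
  obtain ⟨d, hd, hdc⟩ := h.exists_anti hc.1.1 hcs
  have hab : a.1 * b.1 = -(b.1 * a.1) := by rw [hba, neg_neg]
  have ra : ∀ x y : Matrix ι ι F, y * x = x * y → ∀ z, y * (x * z) = x * (y * z) := fun x y e z => by
    rw [← mul_assoc, e, mul_assoc]
  have rb : ∀ x y : Matrix ι ι F, y * x = -(x * y) → ∀ z, y * (x * z) = -(x * (y * z)) :=
    fun x y e z => by rw [← mul_assoc, e, neg_mul, mul_assoc]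
  refine ⟨a, ha, b, hb, c, hc.1.1, ?_⟩
  rcases h.comm_or ha hd with e | e <;> rcases h.comm_or hb hd with e' | e'
  · exact ⟨d, hd, hba, hdc, hca, hcb, e, e'⟩
  · refine ⟨d * a, mul_mem hd ha, hba, ?_, hca, hcb, ?_, ?_⟩ <;> simp only [Units.val_mul, mul_assoc]
    · rw [← hca, rb _ _ hdc]
    · rw [ra _ _ e]
    · rw [hab, mul_neg, rb _ _ e', neg_neg]
  · refine ⟨d * b, mul_mem hd hb, hba, ?_, hca, hcb, ?_, ?_⟩ <;> simp only [Units.val_mul, mul_assoc]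
    · rw [← hcb, rb _ _ hdc]
    · rw [hba, mul_neg, rb _ _ e, neg_neg]
    · rw [ra _ _ e']
  · refine ⟨d * (a * b), mul_mem hd (mul_mem ha hb), hba, ?_, hca, hcb, ?_, ?_⟩ <;>
      simp only [Units.val_mul, mul_assoc]
    · rw [← hcb, ← ra _ _ hca, rb _ _ hdc]
    · rw [hba, mul_neg, mul_neg, rb _ _ e, neg_neg]
    · rw [rb _ _ hab, mul_neg, rb _ _ e', neg_neg]

theorem pair_norm [Nonempty ι] {R : Subgroup (GL ι F)} (h : CF 2 R) (h4 : ∀ x ∈ R, x ^ 4 = 1)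
    {a b : GL ι F} (ha : a ∈ R) (hb : b ∈ R) (hba : b.1 * a.1 = -(a.1 * b.1)) :
    ∃ a' ∈ R, ∃ b' ∈ R, b'.1 * a'.1 = -(a'.1 * b'.1) ∧
      ((a'.1 * a'.1 = 1 ∧ b'.1 * b'.1 = 1) ∨ (a'.1 * a'.1 = -1 ∧ b'.1 * b'.1 = -1)) ∧
      ∀ w : Matrix ι ι F, w * a.1 = a.1 * w → w * b.1 = b.1 * w →
        w * a'.1 = a'.1 * w ∧ w * b'.1 = b'.1 * w := by
  have hw : ∀ w : Matrix ι ι F, w * a.1 = a.1 * w → w * b.1 = b.1 * w →
      w * (a * b).1 = (a * b).1 * w := fun w e e' => by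
    rw [Units.val_mul, ← mul_assoc, e, mul_assoc, e', mul_assoc]
  have hsq : (a * b).1 * (a * b).1 = -(a.1 * a.1 * (b.1 * b.1)) := by
    rw [Units.val_mul, mul_assoc, ← mul_assoc b.1, hba]; simp [mul_assoc]
  rcases h.sq h4 ha with e | e <;> rcases h.sq h4 hb with e' | e'
  · exact ⟨a, ha, b, hb, hba, .inl ⟨e, e'⟩, fun w x y => ⟨x, y⟩⟩
  · refine ⟨a, ha, a * b, mul_mem ha hb, ?_, .inl ⟨e, by rw [hsq, e, e']; simp⟩,
      fun w x y => ⟨x, hw w x y⟩⟩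
    rw [Units.val_mul, mul_assoc, hba, mul_neg]
  · refine ⟨a * b, mul_mem ha hb, b, hb, ?_, .inl ⟨by rw [hsq, e, e']; simp, e'⟩,
      fun w x y => ⟨hw w x y, y⟩⟩
    rw [Units.val_mul, ← mul_assoc, hba, neg_mul]
  · exact ⟨a, ha, b, hb, hba, .inr ⟨e, e'⟩, fun w x y => ⟨x, y⟩⟩

theorem exists_quad' [Nonempty ι] {R : Subgroup (GL ι F)} [Finite R] (h : CF 2 R)
    (h4 : ∀ x ∈ R, x ^ 4 = 1) {j : ℕ}
    (hZ : Nat.card ↥(R ⊓ scalars ι F) = 2 ^ j) (hR : Nat.card R = 2 ^ j * 16) :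
    ∃ a ∈ R, ∃ b ∈ R, ∃ c ∈ R, ∃ d ∈ R, b.1 * a.1 = -(a.1 * b.1) ∧ d.1 * c.1 = -(c.1 * d.1) ∧
      c.1 * a.1 = a.1 * c.1 ∧ c.1 * b.1 = b.1 * c.1 ∧ d.1 * a.1 = a.1 * d.1 ∧
      d.1 * b.1 = b.1 * d.1 ∧
      ((a.1 * a.1 = 1 ∧ b.1 * b.1 = 1) ∨ (a.1 * a.1 = -1 ∧ b.1 * b.1 = -1)) ∧
      ((c.1 * c.1 = 1 ∧ d.1 * d.1 = 1) ∨ (c.1 * c.1 = -1 ∧ d.1 * d.1 = -1)) := by
  obtain ⟨a, ha, b, hb, c, hc, d, hd, e1, e2, e3, e4, e5, e6⟩ := exists_quad h hZ hR
  obtain ⟨a', ha', b', hb', f1, f2, f3⟩ := pair_norm h h4 ha hb e1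
  obtain ⟨c', hc', d', hd', g1, g2, g3⟩ := pair_norm h h4 hc hd e2
  have k1 := f3 _ e3 e4
  have k2 := f3 _ e5 e6
  have k3 := g3 _ k1.1.symm k2.1.symm
  have k4 := g3 _ k1.2.symm k2.2.symm
  exact ⟨a', ha', b', hb', c', hc', d', hd', f1, g1, k3.1.symm, k4.1.symm, k3.2.symm, k4.2.symm,
    f2, g2⟩

theorem exists_rel_i [Nonempty ι] {R : Subgroup (GL ι F)} [Finite R] (h : CF 2 R)
    (h4 : ∀ x ∈ R, x ^ 4 = 1) {j : ℕ}
    (hZ : Nat.card ↥(R ⊓ scalars ι F) = 2 ^ j) (hR : Nat.card R = 2 ^ j * 16) {i : Fˣ}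
    (hi : (i : F) * i = -1) (hiR : sc ι i ∈ R) :
    ∃ a ∈ R, ∃ b ∈ R, ∃ c ∈ R, ∃ d ∈ R, Rel a.1 b.1 c.1 d.1 := by
  obtain ⟨a, ha, b, hb, c, hc, d, hd, e1, e2, e3, e4, e5, e6, e7, e8⟩ := exists_quad' h h4 hZ hR
  obtain ⟨s, hs, hsa, hsb⟩ : ∃ s : Fˣ, sc ι s ∈ R ∧ ((s : F) * s) • (a.1 * a.1) = -1 ∧
      ((s : F) * s) • (b.1 * b.1) = -1 := by
    rcases e7 with ⟨x, y⟩ | ⟨x, y⟩
    · exact ⟨i, hiR, by simp [hi, x], by simp [hi, y]⟩
    · exact ⟨1, by simp, by simp [x], by simp [y]⟩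
  obtain ⟨t, ht, htc, htd⟩ : ∃ t : Fˣ, sc ι t ∈ R ∧ ((t : F) * t) • (c.1 * c.1) = 1 ∧
      ((t : F) * t) • (d.1 * d.1) = 1 := by
    rcases e8 with ⟨x, y⟩ | ⟨x, y⟩
    · exact ⟨1, by simp, by simp [x], by simp [y]⟩
    · exact ⟨i, hiR, by simp [hi, x], by simp [hi, y]⟩
  refine ⟨sc ι s * a, mul_mem hs ha, sc ι s * b, mul_mem hs hb, sc ι t * c, mul_mem ht hc,
    sc ι t * d, mul_mem ht hd, ?_⟩
  simp only [coe_sc_mul]
  constructor <;> simp only [smul_mul_smul_comm, *, smul_neg, mul_comm (t : F) s]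

theorem not_scalar_of_anti [Nonempty ι] (h2 : (2 : F) ≠ 0) {x y : GL ι F}
    (h : y.1 * x.1 = -(x.1 * y.1)) : x ∉ scalars ι F := by
  rintro ⟨t, rfl⟩
  change y.1 * (sc ι t).1 = -((sc ι t).1 * y.1) at h
  rw [← Units.val_mul, ← Units.val_mul, sc_comm] at h
  have h1 : (2 : F) • (y * sc ι t).1 = 0 := by rw [two_smul]; nth_rw 1 [h]; simp
  exact (y * sc ι t).ne_zero ((smul_eq_zero.1 h1).resolve_left h2)

theorem neg_one_mem {R : Subgroup (GL ι F)} {x y : GL ι F} (hx : x ∈ R) (hy : y ∈ R)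
    (h : y.1 * x.1 = -(x.1 * y.1)) : (-1 : GL ι F) ∈ R := by
  have : y * x * (x * y)⁻¹ = -1 := by
    rw [mul_inv_eq_iff_eq_mul]; exact Units.ext (by simpa using h)
  exact this ▸ mul_mem (mul_mem hy hx) (inv_mem (mul_mem hx hy))

theorem not_minus [Nonempty ι] {R : Subgroup (GL ι F)} (h2 : (2 : F) ≠ 0) (hR : Nat.card R = 32)
    (hm : IsOfMinusType 2 R) (hneg : (-1 : GL ι F) ∈ R) {u v : GL ι F} (hu : u ∈ R) (hv : v ∈ R)
    (huu : u * u = 1) (hvv : v * v = 1) (huv : u * v = v * u) (h1 : u ∉ scalars ι F)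
    (h2' : v ∉ scalars ι F) (h3 : u * v ∉ scalars ι F) : False := by
  classical
  haveI : Finite R := Nat.finite_of_card_ne_zero (by omega)
  let S : Set R := {⟨u, hu⟩, ⟨v, hv⟩, ⟨-1, hneg⟩}
  have hS : ∀ x ∈ S, ∀ y ∈ S, x * y = y * x := by
    rintro x (rfl | rfl | rfl) y (rfl | rfl | rfl) <;> apply Subtype.ext <;> simp [huv]
  have hc := Subgroup.isMulCommutative_closure hS
  have hsq : ∀ x ∈ Subgroup.closure S, x * x = 1 := by
    intro x hx
    induction hx using Subgroup.closure_induction with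
    | mem x hx => rcases hx with rfl | rfl | rfl <;> apply Subtype.ext <;> simp [huu, hvv]
    | one => simp
    | mul x y hx hy ex ey =>
      have : y * x = x * y := congrArg Subtype.val (hc.is_comm.comm ⟨y, hy⟩ ⟨x, hx⟩)
      rw [mul_assoc, ← mul_assoc y, this, mul_assoc, ey, mul_one, ex]
    | inv x hx ex => rw [← mul_inv_rev, ex, inv_one]
  have hlt := hm _ hc hsq
  have hd := Subgroup.card_subgroup_dvd_card (Subgroup.closure S)
  rw [hR] at hd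
  have hle : Nat.card (Subgroup.closure S) ≤ 4 := by
    have : Nat.card (Subgroup.closure S) < 8 := hlt
    generalize Nat.card (Subgroup.closure S) = k at *
    interval_cases k <;> omega
  have hn1 : (-1 : GL ι F) ∈ scalars ι F := scalar_iff.2 ⟨-1, by simp⟩
  have hne : (-1 : GL ι F) ≠ 1 := fun e => by
    have := congrArg (fun x : GL ι F => x.1 (Classical.arbitrary ι) (Classical.arbitrary ι)) e
    simp at this
    exact h2 (by linear_combination -this)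
  have m1 : (⟨u, hu⟩ : R) ∈ Subgroup.closure S := Subgroup.subset_closure (by simp [S])
  have m2 : (⟨v, hv⟩ : R) ∈ Subgroup.closure S := Subgroup.subset_closure (by simp [S])
  have m3 : (⟨-1, hneg⟩ : R) ∈ Subgroup.closure S := Subgroup.subset_closure (by simp [S])
  let f : Fin 5 → Subgroup.closure S := ![1, ⟨_, m3⟩, ⟨_, m1⟩, ⟨_, m3⟩ * ⟨_, m1⟩, ⟨_, m2⟩]
  have a1 : u ≠ 1 := fun e => h1 (e ▸ one_mem _)
  have a2 : u ≠ -1 := fun e => h1 (e ▸ hn1)
  have a3 : v ≠ 1 := fun e => h2' (e ▸ one_mem _)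
  have a4 : v ≠ -1 := fun e => h2' (e ▸ hn1)
  have a5 : u ≠ v := fun e => h3 (by rw [← e, huu]; exact one_mem _)
  have a6 : -u ≠ v := fun e => h3 (by rw [← e, mul_neg, huu]; exact hn1)
  have a7 : -u ≠ u := fun e => hne (mul_right_cancel (b := u) (by simpa using e))
  have a8 : -u ≠ 1 := fun e => a2 (by rw [← e, neg_neg])
  have hf : Function.Injective fun k => ((f k : R) : GL ι F) := by
    intro k l hkl
    fin_cases k <;> fin_cases l <;>
      simp [f, a1, a2, a3, a4, a5, a6, a7, a8, hne, a1.symm, a2.symm, a3.symm, a4.symm, a5.symm,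
        a6.symm, a7.symm, a8.symm, hne.symm] at hkl ⊢
  have := Nat.card_le_card_of_injective f fun k l hkl =>
    hf (congrArg (fun t : Subgroup.closure S => ((t : R) : GL ι F)) hkl)
  simp at this
  omega

theorem exists_rel_minus [Nonempty ι] {R : Subgroup (GL ι F)} (h : CF 2 R)
    (h4 : ∀ x ∈ R, x ^ 4 = 1) (h2 : (2 : F) ≠ 0)
    (hZ : Nat.card ↥(R ⊓ scalars ι F) = 2 ^ 1) (hR : Nat.card R = 32) (hm : IsOfMinusType 2 R) :
    ∃ a ∈ R, ∃ b ∈ R, ∃ c ∈ R, ∃ d ∈ R, Rel a.1 b.1 c.1 d.1 := by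
  haveI : Finite R := Nat.finite_of_card_ne_zero (by omega)
  obtain ⟨a, ha, b, hb, c, hc, d, hd, e1, e2, e3, e4, e5, e6, e7, e8⟩ := exists_quad' h h4 hZ hR
  have hneg := neg_one_mem ha hb e1
  have ra : ∀ x y : Matrix ι ι F, y * x = x * y → ∀ z, y * (x * z) = x * (y * z) := fun x y e z => by
    rw [← mul_assoc, e, mul_assoc]
  have rb : ∀ x y : Matrix ι ι F, y * x = -(x * y) → ∀ z, y * (x * z) = -(x * (y * z)) :=
    fun x y e z => by rw [← mul_assoc, e, neg_mul, mul_assoc]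
  have hac : a * c ∉ scalars ι F := not_scalar_of_anti h2 (y := b) (by
    simp only [Units.val_mul, mul_assoc]
    rw [rb _ _ e1, e4])
  rcases e7 with ⟨x, y⟩ | ⟨x, y⟩ <;> rcases e8 with ⟨z, w⟩ | ⟨z, w⟩
  · exact (not_minus h2 hR hm hneg ha hc (Units.ext x) (Units.ext z) (Units.ext e3.symm)
      (not_scalar_of_anti h2 e1) (not_scalar_of_anti h2 e2) hac).elim
  · exact ⟨c, hc, d, hd, a, ha, b, hb, z, w, x, y, e2, e1, e3.symm, e5.symm, e4.symm, e6.symm⟩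
  · exact ⟨a, ha, b, hb, c, hc, d, hd, x, y, z, w, e1, e2, e3, e4, e5, e6⟩
  · have hab : a.1 * b.1 = -(b.1 * a.1) := by rw [e1, neg_neg]
    refine (not_minus h2 hR hm hneg (mul_mem ha hc) (mul_mem hb hd) (Units.ext ?_) (Units.ext ?_)
      (Units.ext ?_) hac (not_scalar_of_anti h2 (y := a) ?_)
      (not_scalar_of_anti h2 (y := a) ?_)).elim <;> simp only [Units.val_mul, mul_assoc]
    · rw [ra _ _ e3, z, ← mul_assoc, x]; simp
    · rw [ra _ _ e6, w, ← mul_assoc, y]; simp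
    · rw [ra _ _ e4, ra _ _ e5, rb _ _ e1, e2]; simp
    · rw [rb _ _ hab, e5]
    · rw [e5, rb _ _ e1, mul_neg, mul_neg, neg_neg, ra _ _ e3]

end Cfsg.Agent.H13.XE
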