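import Mathlib
import Cfsg.Agent.H13.XN5

/-! Explicit elements of the normaliser of a symplectic-type 2-group. -/

set_option autoImplicit false

namespace Cfsg.Agent.H13.XE

open Module Polynomial Cfsg.Geo L0 H10 H11
open scoped MatrixGroups Matrix commutatorElement

variable {ι : Type} [Fintype ι] [DecidableEq ι] {F : Type*} [Field F]

/-- an adjoint map -/
structure IsStar (σ : F →+* F) (st : Matrix ι ι F → Matrix ι ι F) : Prop where
  add : ∀ A B, st (A + B) = st A + st B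
  mul : ∀ A B, st (A * B) = st B * st A
  smul : ∀ (c : F) A, st (c • A) = σ c • st A
  one : st 1 = 1

/-- similitudes with multiplier `μ` -/
def Sim (st : Matrix ι ι F → Matrix ι ι F) (g : GL ι F) (μ : F) : Prop := st g.1 * g.1 = μ • 1

variable {σ : F →+* F} {st : Matrix ι ι F → Matrix ι ι F}

theorem Sim.mul (S : IsStar σ st) {g h : GL ι F} {μ ν : F} (hg : Sim st g μ) (hh : Sim st h ν) :
    Sim st (g * h) (μ * ν) := by
  unfold Sim at *
  rw [Units.val_mul, S.mul, mul_assoc, ← mul_assoc (st g.1), hg, smul_mul_assoc, one_mul,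
    mul_smul_comm, hh, smul_smul]

theorem sim_sc (S : IsStar σ st) (c : Fˣ) : Sim st (sc ι c) (σ c * c) := by
  unfold Sim
  rw [sc_coe, S.smul, S.one, smul_mul_smul_comm, one_mul]

/-- the element `1 + e` for `e² = -1` -/
def sE (h2 : (2 : F) ≠ 0) (e : GL ι F) (he : e.1 * e.1 = -1) : GL ι F :=
  ⟨1 + e.1, (2 : F)⁻¹ • (1 - e.1), by
    rw [mul_smul_comm, add_mul, mul_sub, mul_sub, he, inv_smul_eq_iff₀ h2, two_smul]; simp; abel, by
    rw [smul_mul_assoc, sub_mul, mul_add, mul_add, he, inv_smul_eq_iff₀ h2, two_smul]; simp; abel⟩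

theorem sE_coe (h2 : (2 : F) ≠ 0) (e : GL ι F) (he : e.1 * e.1 = -1) :
    (sE h2 e he).1 = 1 + e.1 := rfl

theorem sE_sim (S : IsStar σ st) (h2 : (2 : F) ≠ 0) {e : GL ι F} (he : e.1 * e.1 = -1)
    (hs : Sim st e 1) : Sim st (sE h2 e he) 2 := by
  have h1 : st e.1 = -e.1 := by
    have : st e.1 * e.1 = -e.1 * e.1 := by rw [hs, neg_mul, he]; simp
    exact (Units.mul_left_inj e).1 this
  unfold Sim
  rw [sE_coe, S.add, S.one, h1, add_mul, mul_add, mul_add, neg_mul e.1 e.1, he]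
  simp [two_smul]

theorem sE_mem [Nonempty ι] {R : Subgroup (GL ι F)} [Finite R] (h : CF 2 R) (h2 : (2 : F) ≠ 0)
    {e : GL ι F} (heR : e ∈ R) (he : e.1 * e.1 = -1) :
    sE h2 e he ∈ Subgroup.normalizer (R : Set (GL ι F)) := by
  refine Subgroup.mem_normalizer_fintype fun x hx => ?_
  rcases h.comm_or heR hx with e1 | e1
  · have : sE h2 e he * x = x * sE h2 e he := Units.ext (by
      simp only [Units.val_mul, sE_coe, add_mul, mul_add, e1, one_mul, mul_one])
    rw [this, mul_inv_cancel_right]; exact hx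
  · have : sE h2 e he * x = e * x * sE h2 e he := Units.ext (by
      simp only [Units.val_mul, sE_coe, add_mul, mul_add, one_mul, mul_one]
      rw [mul_assoc, e1, mul_neg, ← mul_assoc, he]; simp [add_comm])
    rw [this, mul_inv_cancel_right]; exact mul_mem heR hx

theorem sc_mem_norm (R : Subgroup (GL ι F)) (z : Fˣ) :
    sc ι z ∈ Subgroup.normalizer (R : Set (GL ι F)) :=
  Subgroup.mem_normalizer_iff.2 fun x => by rw [sc_comm, mul_inv_cancel_right]

/-- `y` is an isometry for every adjoint map for which `R` consists of isometries -/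
def Iso (R : Subgroup (GL ι F)) (P : (F →+* F) → Prop) (y : GL ι F) : Prop :=
  ∀ (σ : F →+* F) (st : Matrix ι ι F → Matrix ι ι F), IsStar σ st → (∀ e ∈ R, Sim st e 1) → P σ →
    Sim st y 1

section Tr
variable {a b c d : GL ι F} (h : Rel a.1 b.1 c.1 d.1) (h2 : (2 : F) ≠ 0)
include h h2

theorem tr_anti {A : Matrix ι ι F} (y : GL ι F) (e : A * y.1 = -(y.1 * A)) : A.trace = 0 :=
  trace_zero_of (z := -1) (fun e => h2 (by linear_combination -e)) (by simpa using e) y.mul_inv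

theorem Rel.trs : a.1.trace = 0 ∧ b.1.trace = 0 ∧ c.1.trace = 0 ∧ d.1.trace = 0 ∧
    (a.1 * b.1).trace = 0 ∧ (a.1 * c.1).trace = 0 ∧ (a.1 * d.1).trace = 0 ∧
    (b.1 * c.1).trace = 0 ∧ (b.1 * d.1).trace = 0 ∧ (c.1 * d.1).trace = 0 ∧
    (a.1 * (b.1 * c.1)).trace = 0 ∧ (a.1 * (b.1 * d.1)).trace = 0 ∧
    (a.1 * (c.1 * d.1)).trace = 0 ∧ (b.1 * (c.1 * d.1)).trace = 0 ∧
    (a.1 * (b.1 * (c.1 * d.1))).trace = 0 := by
  refine ⟨tr_anti h h2 b ?_, tr_anti h h2 a ?_, tr_anti h h2 d ?_, tr_anti h h2 c ?_,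
    tr_anti h h2 a ?_, tr_anti h h2 b ?_, tr_anti h h2 b ?_, tr_anti h h2 a ?_, tr_anti h h2 a ?_,
    tr_anti h h2 c ?_, tr_anti h h2 a ?_, tr_anti h h2 a ?_, tr_anti h h2 b ?_, tr_anti h h2 a ?_,
    tr_anti h h2 a ?_⟩ <;>
  simp only [mul_assoc, h.aa, h.bb, h.cc, h.dd, h.ba, h.dc, h.ca, h.cb, h.da, h.db, h.aa', h.bb',
    h.cc', h.dd', h.ba', h.dc', h.ca', h.cb', h.da', h.db', mul_neg, neg_mul, neg_neg, mul_one]

end Tr

variable [Nonempty ι] {R : Subgroup (GL ι F)} [Finite R] (hR : CF 2 R) (h4 : Fintype.card ι = 4)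
  (h2 : (2 : F) ≠ 0) {a b c d : GL ι F} (ha : a ∈ R) (hb : b ∈ R) (hc : c ∈ R) (hd : d ∈ R)
  (h : Rel a.1 b.1 c.1 d.1)
include hR h4 h2 ha hb hc hd h

theorem exists_five : ∃ y ∈ Subgroup.normalizer (R : Set (GL ι F)), y ^ 5 = 1 ∧ y.1.trace = -1 ∧
    Iso R (fun _ => True) y := by
  have h4' : (4 : F) ≠ 0 := by rw [show (4 : F) = 2 * 2 by norm_num]; exact mul_ne_zero h2 h2
  have e1 : (c * d).1 * (c * d).1 = -1 := by simp [mul_assoc, h.dc', h.cc', h.dd, h.cc]
  have e2 : (a * c).1 * (a * c).1 = -1 := by simp [mul_assoc, h.ca', h.aa', h.cc, h.aa]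
  have e3 : (a * b).1 * (a * b).1 = -1 := by simp [mul_assoc, h.ba', h.aa', h.bb, h.aa]
  let z : Fˣ := Units.mk0 (-4⁻¹) (by simpa using h4')
  refine ⟨sc ι z * (sE h2 _ e1 * sE h2 _ e2 * sE h2 _ e3 * sE h2 _ h.aa), mul_mem (sc_mem_norm _ _)
    (mul_mem (mul_mem (mul_mem (sE_mem hR h2 (mul_mem hc hd) _) (sE_mem hR h2 (mul_mem ha hc) _))
      (sE_mem hR h2 (mul_mem ha hb) _)) (sE_mem hR h2 ha _)), Units.ext ?_, ?_,
    fun σ st S hs _ => ?_⟩
  · rw [Units.val_pow_eq_pow_val, coe_sc_mul, _root_.smul_pow]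
    simp only [Units.val_mul, sE_coe]
    rw [h.five.1, show (-1024 : Matrix ι ι F) = (-1024 : F) • 1 by
      rw [neg_smul, ← Nat.cast_ofNat (R := F), Nat.cast_smul_eq_nsmul]; simp, smul_smul]
    have : (z : F) ^ 5 * -1024 = 1 := by simp only [z, Units.val_mk0]; field_simp; norm_num
    rw [this]; simp
  · obtain ⟨t1, t2, t3, t4, t5, t6, t7, t8, t9, t10, t11, t12, t13, t14, t15⟩ := h.trs h2
    rw [coe_sc_mul]
    simp only [Units.val_mul, sE_coe]
    rw [h.five.2]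
    simp [E16, *, z]
  · have := (sim_sc S z).mul S ((((sE_sim S h2 e1 (hs _ (mul_mem hc hd))).mul S
      (sE_sim S h2 e2 (hs _ (mul_mem ha hc)))).mul S
      (sE_sim S h2 e3 (hs _ (mul_mem ha hb)))).mul S (sE_sim S h2 h.aa (hs _ ha)))
    convert this using 1
    simp only [z, Units.val_mk0, map_neg, map_inv₀, map_ofNat]
    field_simp; norm_num

omit hc hd in
theorem exists_three₁ : ∃ y ∈ Subgroup.normalizer (R : Set (GL ι F)), y ^ 3 = 1 ∧
    y.1.trace = -2 ∧ Iso R (fun _ => True) y ∧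
    y.1 = (-2⁻¹ : F) • (1 + a.1 + b.1 + a.1 * b.1) := by
  let z : Fˣ := Units.mk0 (-2⁻¹) (by simpa using h2)
  have hv : (sc ι z * (sE h2 _ h.aa * sE h2 _ h.bb)).1 =
      (-2⁻¹ : F) • (1 + a.1 + b.1 + a.1 * b.1) := by
    rw [coe_sc_mul]
    simp only [Units.val_mul, sE_coe, z, Units.val_mk0, mul_add, add_mul, one_mul, mul_one,
      add_assoc]
  refine ⟨sc ι z * (sE h2 _ h.aa * sE h2 _ h.bb), mul_mem (sc_mem_norm _ _)
    (mul_mem (sE_mem hR h2 ha _) (sE_mem hR h2 hb _)), Units.ext ?_, ?_,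
    fun σ st S hs _ => ?_, hv⟩
  · rw [Units.val_pow_eq_pow_val, hv, _root_.smul_pow]
    have : (1 + a.1 + b.1 + a.1 * b.1) ^ 3 = (-8 : F) • 1 := by
      simp only [pow_succ, pow_zero, mul_add, add_mul, one_mul, mul_one, mul_assoc, h.aa, h.bb,
        h.ba, h.aa', h.bb', h.ba', mul_neg, neg_mul, neg_neg]
      module
    rw [this, smul_smul, show (-2⁻¹ : F) ^ 3 * -8 = 1 by field_simp; norm_num]; simp
  · obtain ⟨t1, t2, t3, t4, t5, -⟩ := h.trs h2
    rw [hv]
    simp [*]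
    field_simp; norm_num
  · have := (sim_sc S z).mul S ((sE_sim S h2 h.aa (hs _ ha)).mul S (sE_sim S h2 h.bb (hs _ hb)))
    convert this using 1
    simp only [z, Units.val_mk0, map_neg, map_inv₀, map_ofNat]
    field_simp

variable {i : Fˣ} (hi : (i : F) * i = -1) (hiR : sc ι i ∈ R)
include hi hiR

theorem exists_three₂ : ∃ y ∈ Subgroup.normalizer (R : Set (GL ι F)), y ^ 3 = 1 ∧
    y.1.trace = 1 ∧ Iso R (fun _ => True) y := by
  obtain ⟨y, y1, y2, -, y4, y5⟩ := exists_three₁ hR h4 h2 ha hb h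
  have h' : Rel (sc ι i * c).1 (sc ι i * d).1 (sc ι i * a).1 (sc ι i * b).1 := by
    simp only [coe_sc_mul]
    constructor <;> simp only [smul_mul_smul_comm, hi, h.aa, h.bb, h.cc, h.dd, h.ba, h.dc, h.ca,
      h.cb, h.da, h.db, smul_neg, neg_smul, one_smul, neg_neg]
  obtain ⟨w, w1, w2, -, w4, w5⟩ := exists_three₁ hR h4 h2 (mul_mem hiR hc) (mul_mem hiR hd) h'
  simp only [coe_sc_mul, smul_mul_smul_comm, hi] at w5
  have hcom : Commute y w := Units.ext (by
    rw [Units.val_mul, Units.val_mul, y5, w5]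
    simp only [smul_mul_assoc, mul_smul_comm, mul_add, add_mul, one_mul, mul_one, mul_assoc,
      h.ca, h.cb, h.da, h.db, h.ca', h.cb', h.da', h.db']
    module)
  refine ⟨y * w, mul_mem y1 w1, by rw [hcom.mul_pow, y2, w2, one_mul], ?_,
    fun σ st S hs hp => by simpa using (y4 σ st S hs hp).mul S (w4 σ st S hs hp)⟩
  obtain ⟨t1, t2, t3, t4, t5, t6, t7, t8, t9, t10, t11, t12, t13, t14, t15⟩ := h.trs h2
  rw [Units.val_mul, y5, w5]
  simp only [smul_mul_assoc, mul_smul_comm, mul_add, add_mul, one_mul, mul_one, mul_assoc,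
    Matrix.trace_smul, Matrix.trace_add, *]
  simp [h4]
  field_simp; norm_num

omit hb hd in
theorem exists_two : ∃ y ∈ Subgroup.normalizer (R : Set (GL ι F)), y.1 * y.1 = 1 ∧
    y.1.trace = 2 ∧ (∀ t : F, y.1 ≠ t • 1) ∧ Iso R (fun σ => σ i = -i) y := by
  have hi0 : (1 : F) - i ≠ 0 := fun e => h2 (by linear_combination (1 + i) * e + hi)
  let z : Fˣ := Units.mk0 (2 * (1 - i))⁻¹ (inv_ne_zero (mul_ne_zero h2 hi0))
  have e1 : (sc ι i⁻¹ * c).1 * (sc ι i⁻¹ * c).1 = -1 := by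
    rw [coe_sc_mul, smul_mul_smul_comm, h.cc, Units.val_inv_eq_inv_val, ← mul_inv, hi]; simp
  have e2 : (a * c)⁻¹.1 = -(a.1 * c.1) := Units.inv_eq_of_mul_eq_one_left (by
    simp [mul_assoc, h.ca', h.aa', h.cc, h.aa])
  have e3 : (a * c)⁻¹.1 * (a * c)⁻¹.1 = -1 := by
    rw [e2]; simp [mul_assoc, h.ca', h.aa', h.cc, h.aa]
  have hii : ((i⁻¹ : Fˣ) : F) = -i := by
    rw [Units.val_inv_eq_inv_val]
    exact inv_eq_of_mul_eq_one_right (by rw [mul_neg, hi, neg_neg])
  have hv : (sc ι z * (sE h2 _ e1 * sE h2 _ h.aa * sE h2 _ e3)).1 =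
      (2⁻¹ : F) • (1 + c.1 + (i : F) • a.1 - (i : F) • (a.1 * c.1)) := by
    rw [coe_sc_mul]
    simp only [Units.val_mul, sE_coe, z, Units.val_mk0, e2, sc_coe, hii, smul_mul_assoc,
      mul_add, add_mul, one_mul, mul_one, mul_assoc, h.ca, h.ca', h.aa', h.cc, mul_neg, neg_neg]
    match_scalars <;> field_simp <;> first | ring1 | linear_combination hi | linear_combination -hi
  obtain ⟨t1, t2, t3, t4, t5, t6, -⟩ := h.trs h2
  refine ⟨sc ι z * (sE h2 _ e1 * sE h2 _ h.aa * sE h2 _ e3), mul_mem (sc_mem_norm _ _)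
    (mul_mem (mul_mem (sE_mem hR h2 (mul_mem (map_inv (sc ι) i ▸ inv_mem hiR) hc) _)
      (sE_mem hR h2 ha _)) (sE_mem hR h2 (inv_mem (mul_mem ha hc)) _)), ?_, ?_, fun t ht => ?_,
    fun σ st S hs hp => ?_⟩
  · rw [hv]
    simp only [smul_mul_assoc, mul_smul_comm, mul_add, add_mul, mul_sub, sub_mul, one_mul, mul_one,
      mul_assoc, h.ca, h.ca', h.aa, h.aa', h.cc, mul_neg, neg_neg]
    match_scalars <;> field_simp <;>
      first | ring1 | linear_combination hi | linear_combination -hi |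
        linear_combination 2 * hi | linear_combination -2 * hi
  · rw [hv]
    simp [*]
    field_simp; norm_num
  · have := congrArg (fun M => (c.1 * M).trace) ht
    simp only [hv, smul_mul_assoc, mul_smul_comm, mul_add, mul_sub, mul_one, h.ca, h.ca', h.cc,
      Matrix.trace_smul, Matrix.trace_add, Matrix.trace_sub, t1, t3, t6] at this
    simp [h4, h2] at this
    exact mul_ne_zero h2 h2 (by linear_combination this)
  · have := (sim_sc S z).mul S (((sE_sim S h2 e1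
      (hs _ (mul_mem (map_inv (sc ι) i ▸ inv_mem hiR) hc))).mul S
      (sE_sim S h2 h.aa (hs _ ha))).mul S (sE_sim S h2 e3 (hs _ (inv_mem (mul_mem ha hc)))))
    convert this using 1
    have hi1 : (1 : F) + i ≠ 0 := fun e => h2 (by linear_combination (1 - i) * e + hi)
    simp only [z, Units.val_mk0, map_mul, map_sub, map_one, map_inv₀, map_ofNat, hp, sub_neg_eq_add]
    field_simp
    linear_combination -hi

end Cfsg.Agent.H13.XE
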