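import Mathlib
import Cfsg.Agent.H13.XN6

/-! Test elements and the two directions of the fixed point criteria in dimension four. -/

set_option autoImplicit false

namespace Cfsg.Agent.H13.XE

open Module Polynomial Cfsg.Geo L0 H10 H11
open scoped MatrixGroups Matrix commutatorElement

variable {ι : Type} [Fintype ι] [DecidableEq ι] {F : Type*} [Field F]

/-- every element of order `r` modulo scalars is conjugate into the normaliser -/
def ELg (G R : Subgroup (GL ι F)) (r : ℕ) : Prop :=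
  ∀ x ∈ G, (∃ z : F, (x ^ r).1 = z • 1) → (∀ z : F, x.1 ≠ z • 1) →
    ∃ g ∈ G, g⁻¹ * x * g ∈ Subgroup.normalizer (R : Set (GL ι F))

theorem SSm.smul [Finite F] {x : GL ι F} (hx : SSm x) (w : Fˣ) : SSm (sc ι w * x) := by
  obtain ⟨m, hm, h⟩ := hx
  exact ssm_of_pow hm (z := w ^ m) (by
    rw [Commute.mul_pow (sc_comm w x), h, mul_one, map_pow])

theorem unit_of_pow [Nonempty ι] {x : GL ι F} {z : F} (h : x.1 = z • 1) :
    ∃ u : Fˣ, (u : F) = z ∧ x = sc ι u := by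
  have hz : z ≠ 0 := by
    rintro rfl
    have := Matrix.GeneralLinearGroup.det_ne_zero x
    rw [h] at this
    simp at this
  exact ⟨Units.mk0 z hz, rfl, Units.ext (by rw [sc_coe, h]; rfl)⟩

theorem ns_smul {x : GL ι F} (h : ∀ z : F, x.1 ≠ z • 1) (w : Fˣ) :
    ∀ z : F, (sc ι w * x).1 ≠ z • 1 := fun z e => h ((w : F)⁻¹ * z) (by
  rw [coe_sc_mul] at e
  rw [mul_smul, ← e, inv_smul_smul₀ w.ne_zero])

theorem split_pow {x : GL ι F} {r : ℕ} {w : Fˣ} (h : x ^ r = sc ι (w ^ r)) :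
    (sc ι w⁻¹ * x) ^ r = 1 := by
  rw [Commute.mul_pow (sc_comm _ x), h, ← map_pow, ← map_mul]; simp

theorem ev_eq_smul [Finite F] {x y : GL ι F} {w : Fˣ} (hx : SSm x) (hy : SSm y)
    (h : Ev (sc ι w⁻¹ * x) = Ev y) : x.1.charpoly = (sc ι w * y).1.charpoly := by
  apply charpoly_eq_of_ev
  rw [hy.ev_smul, ← h, ← (hx.smul _).ev_smul, ← mul_assoc, ← map_mul]
  simp

theorem conj_facts [Nonempty ι] {x : GL ι F} (g : GL ι F) {r : ℕ} (hx : x ^ r = 1)
    (hns : ∀ z : F, x.1 ≠ z • 1) : (g⁻¹ * x * g) ^ r = sc ι 1 ∧ g⁻¹ * x * g ∉ scalars ι F ∧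
      (g⁻¹ * x * g).1.trace = x.1.trace ∧ (g⁻¹ * x * g)⁻¹.1.trace = (x⁻¹).1.trace := by
  refine ⟨?_, fun h => ?_, Matrix.trace_units_conj' _ _, ?_⟩
  · have := conj_pow (a := g⁻¹) (b := x) (i := r)
    rw [inv_inv] at this
    rw [this, hx]; simp
  · have := (scalars_normal (ι := ι) (F := F)).conj_mem _ h g
    obtain ⟨c, hc⟩ := scalar_iff.1 (by simpa [mul_assoc] using this : x ∈ scalars ι F)
    exact hns c hc
  · rw [show (g⁻¹ * x * g)⁻¹ = g⁻¹ * x⁻¹ * g by group]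
    exact Matrix.trace_units_conj' _ _

theorem exists_order [Finite F] [Nonempty ι] {G H : Subgroup (GL ι F)} (hG : G ≤ specialLinear ι F)
    {r : ℕ} [hr : Fact r.Prime] (h : r ∣ H.relIndex G) (hcop : r.Coprime (Fintype.card ι)) :
    ∃ x ∈ G, x ^ r = 1 ∧ ∀ z : F, x.1 ≠ z • 1 := by
  obtain ⟨x, hx⟩ := exists_prime_orderOf_dvd_card' (G := G) r (h.trans (Subgroup.index_dvd_card _))
  have h1 : x.1 ^ r = 1 := congrArg Subtype.val (hx ▸ pow_orderOf_eq_one x)
  refine ⟨x, x.2, h1, fun z hz => ?_⟩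
  obtain ⟨u, rfl, hu⟩ := unit_of_pow hz
  have h2 : u ^ r = 1 := sc_inj (ι := ι) (by rw [map_pow, ← hu, h1, map_one])
  have h3 : u ^ Fintype.card ι = 1 := Units.ext (by
    have := H18.El.mem_sl.1 (hG x.2)
    rw [hz] at this
    simpa using this)
  have : x = 1 := Subtype.ext (by rw [hu, (pow_eq_one_iff_of_coprime hcop).1 ⟨h2, h3⟩, map_one]; rfl)
  rw [this, orderOf_one] at hx
  exact hr.out.ne_one hx.symm

theorem no_rank_one [Nonempty ι] {G R : Subgroup (GL ι F)} (hR : CF 2 R) (h4 : Fintype.card ι = 4)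
    {r : ℕ} (hr : r.Prime) (h2 : r ≠ 2) {x : GL ι F} (hxG : x ∈ G) (hx : x ^ r = 1)
    (hns : ∀ z : F, x.1 ≠ z • 1) {c : F} {u w : ι → F} (h : x.1 - c • 1 = Matrix.vecMulVec u w) :
    ¬ ELg G R r := by
  intro H
  obtain ⟨g, -, hg⟩ := H x hxG ⟨1, by rw [hx]; simp⟩ hns
  obtain ⟨a1, a2, -⟩ := conj_facts g hx hns
  have h1 := hR.half Nat.prime_two hg a2 hr h2 (by rw [a1, map_one]) (fun e => absurd e h2) c
  have h3 : finrank F ((ρ x).eigenspace c) ≤ finrank F ((ρ (g⁻¹ * x * g)).eigenspace c) :=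
    finrank_eig_le_of_conj (ρ_inj g⁻¹) fun v hv => by
      rw [← End.mul_apply, ← map_mul, mul_inv_cancel_right, map_mul, End.mul_apply, hv, map_smul]
  have h5 := LinearMap.finrank_range_add_finrank_ker (Matrix.toLin' (x.1 - c • 1))
  have h6 : finrank F (LinearMap.range (Matrix.toLin' (x.1 - c • 1))) ≤ 1 := by
    rw [h]; exact Matrix.rank_vecMulVec_le u w
  have h7 : LinearMap.ker (Matrix.toLin' (x.1 - c • 1)) = (ρ x).eigenspace c := by
    ext v
    simp [End.mem_eigenspace_iff, ρ_def, sub_eq_zero]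
  rw [h7, finrank_pi, h4] at h5
  omega

section N4
variable [Nonempty ι] {G R : Subgroup (GL ι F)} [Finite R] (hR : CF 2 R)
    (hc : ∀ M : Matrix ι ι F, (∀ s ∈ matrixSet R, M * s = s * M) → ∃ c : F, M = c • 1)
    (h4 : Fintype.card ι = 4) (h2 : (2 : F) ≠ 0) {j : ℕ}
    (hZ : Nat.card ↥(R ⊓ scalars ι F) = 2 ^ j) (hRc : Nat.card R = 2 ^ j * 16)
include hR hc h4 h2 hZ hRc

theorem three_or_five [Finite F] (hG : G ≤ specialLinear ι F) {r : ℕ} [hr : Fact r.Prime]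
    (hr2 : r ≠ 2) {H : Subgroup (GL ι F)} (h : r ∣ H.relIndex G) (E : ELg G R r) :
    r = 3 ∨ r = 5 := by
  obtain ⟨x, hxG, hx, hns⟩ := exists_order hG h (by
    rw [h4]; exact ((Nat.coprime_primes hr.out Nat.prime_two).2 hr2).pow_right 2)
  obtain ⟨g, -, hg⟩ := E x hxG ⟨1, by rw [hx]; simp⟩ hns
  obtain ⟨a1, a2, -⟩ := conj_facts g hx hns
  exact (n4 hR hc h4 h2 hZ hRc hg hr2 a1 a2).1

theorem no_five (h5 : (5 : F) ≠ 0) {x : GL ι F} (hxG : x ∈ G) (hx : x ^ 5 = 1)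
    (hns : ∀ z : F, x.1 ≠ z • 1) {τ : F} (hτ : τ ^ 2 + τ - 1 = 0) (h1 : x.1.trace = τ + 2)
    (h1' : (x⁻¹).1.trace = τ + 2) : ¬ ELg G R 5 := by
  intro E
  haveI : Fact (Nat.Prime 5) := ⟨Nat.prime_five⟩
  obtain ⟨g, -, hg⟩ := E x hxG ⟨1, by rw [hx]; simp⟩ hns
  obtain ⟨a1, a2, a3, a4⟩ := conj_facts g hx hns
  have := (n4 hR hc h4 h2 hZ hRc hg (by norm_num) a1 a2).2.1 rfl
  rw [a3, a4, h1, h1'] at this
  exact h5 (by linear_combination (3 * τ - 1) * this - (3 * τ + 8) * hτ)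

end N4

section Dir
variable [Nonempty ι] {R : Subgroup (GL ι F)} [Finite R] (hR : CF 2 R) (h4 : Fintype.card ι = 4)
  (h2 : (2 : F) ≠ 0) {a b c d : GL ι F} (ha : a ∈ R) (hb : b ∈ R) (hc : c ∈ R) (hd : d ∈ R)
  (h : Rel a.1 b.1 c.1 d.1)
include hR h4 h2 ha hb hc hd h

theorem five_dir (h5 : (5 : F) ≠ 0) {s : ℕ} (hs5 : s % 5 = 2 ∨ s % 5 = 3) {x : GL ι F}
    (hx : x ^ 5 = 1) (h1 : x ≠ 1) (hsx : ∀ t ∈ Ev x, t ^ s ∈ Ev x)
    (hsy : ∀ y, y ^ 5 = 1 → Iso R (fun _ => True) y → ∀ t ∈ Ev y, t ^ s ∈ Ev y) :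
    ∃ y ∈ Subgroup.normalizer (R : Set (GL ι F)), SSm y ∧ Ev x = Ev y ∧
      Iso R (fun _ => True) y := by
  obtain ⟨y, y1, y2, y3, y4⟩ := exists_five hR h4 h2 ha hb hc hd h
  refine ⟨y, y1, ⟨5, h5, y2⟩, ?_, y4⟩
  rw [five_four h4 h5 hx h1 hs5 hsx, five_four h4 h5 y2 ?_ hs5 (hsy y y2 y4)]
  rintro rfl
  simp [h4] at y3
  exact h5 (by linear_combination y3)

variable {i : Fˣ} (hi : (i : F) * i = -1) (hiR : sc ι i ∈ R)
include hi hiR

theorem three_dir (h3 : (3 : F) ≠ 0) {x : GL ι F} (hx : x ^ 3 = 1) (h1 : x ≠ 1)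
    (hsx : (Ev x).map (· ^ 2) = Ev x)
    (hsy : ∀ y, y ^ 3 = 1 → Iso R (fun _ => True) y → (Ev y).map (· ^ 2) = Ev y) :
    ∃ y ∈ Subgroup.normalizer (R : Set (GL ι F)), SSm y ∧ Ev x = Ev y ∧
      Iso R (fun _ => True) y := by
  obtain ⟨ω, hω, hω1⟩ := exists_omega h3
  rcases three_four h4 h3 hx h1 hsx hω hω1 with ⟨e, -⟩ | ⟨e, -⟩
  · obtain ⟨y, y1, y2, y3, y4⟩ := exists_three₂ hR h4 h2 ha hb hc hd h hi hiR
    refine ⟨y, y1, ⟨3, h3, y2⟩, three_four_eq h4 h3 hx h1 hsx y2 ?_ (hsy y y2 y4)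
      (e.trans y3.symm), y4⟩
    rintro rfl
    simp [h4] at y3
    exact h3 (by linear_combination y3)
  · obtain ⟨y, y1, y2, y3, y4, -⟩ := exists_three₁ hR h4 h2 ha hb h
    refine ⟨y, y1, ⟨3, h3, y2⟩, three_four_eq h4 h3 hx h1 hsx y2 ?_ (hsy y y2 y4)
      (e.trans y3.symm), y4⟩
    rintro rfl
    simp [h4] at y3
    exact mul_ne_zero h2 h3 (by linear_combination y3)

omit hb hd in
theorem two_dir {x : GL ι F} (hx : x.1 * x.1 = 1) (hns : ∀ z : F, x.1 ≠ z • 1) :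
    ∃ y ∈ Subgroup.normalizer (R : Set (GL ι F)), SSm y ∧ Ev x = Ev y ∧
      Iso R (fun σ => σ i = -i) y := by
  obtain ⟨y, y1, y2, y3, y4, y5⟩ := exists_two hR h4 h2 ha hc h hi hiR
  rcases inv_four_tr h4 h2 hx hns with e | e | e
  · have hcs := not_scalar_of_anti h2 h.dc
    exact ⟨c, Subgroup.le_normalizer hc, ssm_of_pow' (m := 2) h2 (by rw [sq, h.cc]),
      inv_four_eq h4 h2 hx hns h.cc (fun z e => hcs (scalar_iff.2 ⟨z, e⟩))
        (e.trans (hR.tr_zero hc hcs).symm), fun σ st _ hs _ => hs c hc⟩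
  · exact ⟨y, y1, ssm_of_pow' (m := 2) h2 (by rw [sq, y2]),
      inv_four_eq h4 h2 hx hns y2 y4 (e.trans y3.symm), y5⟩
  · have e1 : (sc ι (-1) * y).1 * (sc ι (-1) * y).1 = 1 := by rw [coe_sc_mul]; simp [y2]
    refine ⟨sc ι (-1) * y, mul_mem (sc_mem_norm _ _) y1, ssm_of_pow' (m := 2) h2 (by rw [sq, e1]),
      inv_four_eq h4 h2 hx hns e1 (ns_smul y4 _) (by rw [e, coe_sc_mul]; simp [y3]),
      fun σ st S hs hp => ?_⟩
    simpa using (sim_sc S (-1)).mul S (y5 σ st S hs hp)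

end Dir

theorem no_three4 {G R : Subgroup (GL (Fin 4) F)} (hR : CF 2 R) {ω : F} (hω3 : ω ^ 3 = 1)
    (hω1 : ω ≠ 1) (hG : ∀ x : GL (Fin 4) F, x.1 = Matrix.diagonal ![ω, ω, ω, 1] → x.1.det = 1 →
      x ∈ G) : ¬ ELg G R 3 := by
  have hd : (Matrix.diagonal ![(ω : F), ω, ω, 1]).det = 1 := by
    simp [Fin.prod_univ_four]; linear_combination hω3
  refine no_rank_one hR (by simp) Nat.prime_three (by norm_num)
    (x := Matrix.GeneralLinearGroup.mkOfDetNeZero _ (hd.trans_ne one_ne_zero))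
    (hG _ rfl hd) (Units.ext ?_) (fun z e => ?_) (c := ω) (u := ![0, 0, 0, 1 - ω])
    (w := ![0, 0, 0, 1]) ?_
  · rw [Units.val_pow_eq_pow_val]
    change Matrix.diagonal _ ^ 3 = 1
    rw [Matrix.diagonal_pow, ← Matrix.diagonal_one]
    congr 1
    ext k; fin_cases k <;> simp [hω3]
  · have e1 := congrFun (congrFun e 0) 0
    have e2 := congrFun (congrFun e 3) 3
    simp at e1 e2
    exact hω1 (e1.trans e2.symm)
  · ext k l; fin_cases k <;> fin_cases l <;> simp [Matrix.vecMulVec_apply]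

theorem exists_i [Nonempty ι] {R : Subgroup (GL ι F)}
    (hZ : Nat.card ↥(R ⊓ scalars ι F) = 2 ^ 2) : ∃ i : Fˣ, (i : F) * i = -1 ∧ sc ι i ∈ R := by
  classical
  by_contra! hne
  have : Nat.card ↥(R ⊓ scalars ι F) ≤ Nat.card ({1, -1} : Finset (GL ι F)) := by
    refine Nat.card_le_card_of_injective (fun x => ⟨x.1, ?_⟩) fun x y e =>
      Subtype.ext (by simpa using e)
    obtain ⟨t, ht⟩ := mem_scalars.1 x.2.2
    have h1 : t ^ 4 = 1 := sc_inj (ι := ι) (by
      have := pow_card_eq_one' (x := x)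
      rw [hZ] at this
      rw [map_pow, ht, map_one]
      exact congrArg Subtype.val this)
    rcases sq_cases (z := t ^ 2) (by rw [← pow_mul, h1]) with e | e
    · rcases sq_cases e with rfl | rfl
      · simp [← ht]
      · have : sc ι (-1 : Fˣ) = -1 := Units.ext (by simp [sc_coe])
        simp [← ht, this]
    · exact absurd (ht ▸ x.2.1) (hne t (by rw [← sq, ← Units.val_pow_eq_pow_val, e]; simp))
  rw [hZ, Nat.card_eq_fintype_card, Fintype.card_coe] at this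
  have := Finset.card_le_two (a := (1 : GL ι F)) (b := -1)
  omega

/-- the block embedding into dimension four -/
def b4 : Matrix (Fin 2) (Fin 2) F →* Matrix (Fin 4) (Fin 4) F where
  toFun A := !![A 0 0, A 0 1, 0, 0; A 1 0, A 1 1, 0, 0; 0, 0, 1, 0; 0, 0, 0, 1]
  map_one' := by ext i j; fin_cases i <;> fin_cases j <;> simp
  map_mul' A B := by
    ext i j; fin_cases i <;> fin_cases j <;> simp [Matrix.mul_apply, Fin.sum_univ_succ]

theorem b4_def (A : Matrix (Fin 2) (Fin 2) F) :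
    b4 A = !![A 0 0, A 0 1, 0, 0; A 1 0, A 1 1, 0, 0; 0, 0, 1, 0; 0, 0, 0, 1] := rfl

theorem b4_trace (A : Matrix (Fin 2) (Fin 2) F) : (b4 A).trace = A 0 0 + A 1 1 + 2 := by
  simp [b4_def, Matrix.trace, Fin.sum_univ_succ]; ring

theorem b4_det (A : Matrix (Fin 2) (Fin 2) F) : (b4 A).det = A.det := by
  simp [b4_def, Matrix.det_succ_row_zero, Fin.sum_univ_succ, Fin.succAbove]

theorem b4_ns {A : Matrix (Fin 2) (Fin 2) F} (h : A ≠ 1) (z : F) : b4 A ≠ z • 1 := by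
  intro e
  have h1 : z = 1 := by simpa [b4_def] using (congrFun (congrFun e 3) 3).symm
  apply h
  have a := congrFun (congrFun e 0) 0
  have b := congrFun (congrFun e 0) 1
  have c := congrFun (congrFun e 1) 0
  have d := congrFun (congrFun e 1) 1
  simp [b4_def, h1] at a b c d
  ext i j; fin_cases i <;> fin_cases j <;> simp [*]

/-- the block embedding into the symplectic group -/
def bS : Matrix (Fin 2) (Fin 2) F →* Matrix (Fin 2 ⊕ Fin 2) (Fin 2 ⊕ Fin 2) F where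
  toFun A := Matrix.fromBlocks !![A 0 0, 0; 0, 1] !![A 0 1, 0; 0, 0] !![A 1 0, 0; 0, 0]
    !![A 1 1, 0; 0, 1]
  map_one' := by
    ext (i | i) (j | j) <;> fin_cases i <;> fin_cases j <;> simp
  map_mul' A B := by
    rw [Matrix.fromBlocks_multiply]
    congr 1 <;> ext i j <;> fin_cases i <;> fin_cases j <;>
      simp [Matrix.mul_apply, Fin.sum_univ_succ]

theorem bS_def (A : Matrix (Fin 2) (Fin 2) F) : bS A = Matrix.fromBlocks !![A 0 0, 0; 0, 1]
    !![A 0 1, 0; 0, 0] !![A 1 0, 0; 0, 0] !![A 1 1, 0; 0, 1] := rfl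

theorem bS_trace (A : Matrix (Fin 2) (Fin 2) F) : (bS A).trace = A 0 0 + A 1 1 + 2 := by
  simp [bS_def, Matrix.trace, Fin.sum_univ_succ]; ring

theorem bS_mem {A : Matrix (Fin 2) (Fin 2) F} (h : A.det = 1) :
    bS A ∈ Matrix.symplecticGroup (Fin 2) F := by
  rw [Matrix.det_fin_two] at h
  rw [SymplecticGroup.mem_iff, bS_def, Matrix.J, Matrix.fromBlocks_transpose,
    Matrix.fromBlocks_multiply, Matrix.fromBlocks_multiply]
  congr 1 <;> ext i j <;> fin_cases i <;> fin_cases j <;>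
    simp [Matrix.mul_apply, Fin.sum_univ_succ, Matrix.vecMul, dotProduct] <;>
    first | ring1 | linear_combination h | linear_combination -h

theorem bS_ns {A : Matrix (Fin 2) (Fin 2) F} (h : A ≠ 1) (z : F) : bS A ≠ z • 1 := by
  intro e
  have h1 : z = 1 := by simpa [bS_def] using (congrFun (congrFun e (.inl 1)) (.inl 1)).symm
  apply h
  have a := congrFun (congrFun e (.inl 0)) (.inl 0)
  have b := congrFun (congrFun e (.inl 0)) (.inr 0)
  have c := congrFun (congrFun e (.inr 0)) (.inl 0)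
  have d := congrFun (congrFun e (.inr 0)) (.inr 0)
  simp [bS_def, h1] at a b c d
  ext i j; fin_cases i <;> fin_cases j <;> simp [*]

/-- a unit of determinant one -/
def m2 (α β γ δ : F) (h : α * δ - β * γ = 1) : GL (Fin 2) F :=
  ⟨!![α, β; γ, δ], !![δ, -β; -γ, α], by
    ext i j; fin_cases i <;> fin_cases j <;> simp [Matrix.mul_apply, Fin.sum_univ_succ] <;>
      first | ring1 | linear_combination h, by
    ext i j; fin_cases i <;> fin_cases j <;> simp [Matrix.mul_apply, Fin.sum_univ_succ] <;>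
      first | ring1 | linear_combination h⟩

theorem m2_sq {α β γ δ : F} (h : α * δ - β * γ = 1) :
    (m2 α β γ δ h).1 * (m2 α β γ δ h).1 = (α + δ) • (m2 α β γ δ h).1 - 1 := by
  ext i j; fin_cases i <;> fin_cases j <;> simp [m2, Matrix.mul_apply, Fin.sum_univ_succ] <;>
    first | ring1 | linear_combination -h

theorem m2_det {α β γ δ : F} (h : α * δ - β * γ = 1) : (m2 α β γ δ h).1.det = 1 := by
  simp [m2, Matrix.det_fin_two, h]

theorem m2_five {α β γ δ : F} (h : α * δ - β * γ = 1) (hτ : (α + δ) ^ 2 + (α + δ) - 1 = 0) :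
    m2 α β γ δ h ^ 5 = 1 := by
  apply Units.ext
  have := m2_sq h
  rw [Units.val_pow_eq_pow_val, Units.val_one]
  generalize (m2 α β γ δ h).1 = A at this ⊢
  simp only [pow_succ, pow_zero, one_mul, this, sub_mul, smul_mul_assoc]
  match_scalars
  · linear_combination ((α + δ) ^ 2 - (α + δ) - 1) * hτ
  · linear_combination (1 - (α + δ)) * hτ

theorem m2_three {α β γ δ : F} (h : α * δ - β * γ = 1) (hτ : α + δ = -1) :
    m2 α β γ δ h ^ 3 = 1 := by
  apply Units.ext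
  have := m2_sq h
  rw [Units.val_pow_eq_pow_val, Units.val_one]
  generalize (m2 α β γ δ h).1 = A at this ⊢
  simp only [pow_succ, pow_zero, one_mul, this, sub_mul, smul_mul_assoc, hτ]
  module

theorem m2_char {α β γ δ : F} (h : α * δ - β * γ = 1) (hτ : α + δ = 2) (p : ℕ) [CharP F p] :
    m2 α β γ δ h ^ p = 1 := by
  apply Units.ext
  have := m2_sq h
  rw [Units.val_pow_eq_pow_val, Units.val_one]
  generalize (m2 α β γ δ h).1 = A at this ⊢
  have key : ∀ k : ℕ, A ^ k = 1 + (k : F) • (A - 1) := by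
    intro k
    induction k with
    | zero => simp
    | succ k ih =>
      rw [pow_succ, ih, add_mul, smul_mul_assoc, sub_mul, this, hτ]
      push_cast
      simp only [one_mul]
      module
  rw [key, CharP.cast_eq_zero]; simp

theorem m2_ne {α β γ δ : F} (h : α * δ - β * γ = 1) (h' : α + δ ≠ 2 ∨ β ≠ 0) :
    (m2 α β γ δ h).1 ≠ 1 := by
  intro e
  have a := congrFun (congrFun e 0) 0
  have b := congrFun (congrFun e 0) 1
  have d := congrFun (congrFun e 1) 1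
  simp [m2] at a b d
  rcases h' with h' | h'
  · exact h' (by rw [a, d]; norm_num)
  · exact h' b

/-- the unitary adjoint -/
theorem isStar_u (σ : F →+* F) : IsStar σ fun A : Matrix ι ι F => (A.map σ)ᵀ :=
  ⟨fun A B => by rw [Matrix.map_add _ (map_add σ), Matrix.transpose_add],
    fun A B => by rw [Matrix.map_mul, Matrix.transpose_mul],
    fun c A => by rw [S2677.msm, Matrix.transpose_smul], by simp⟩

theorem mem_GU_sim {σ : F →+* F} {q n : ℕ} (hq : ∀ x, σ x = x ^ q) {g : GL (Fin n) F} :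
    g ∈ GU n F q ↔ Sim (fun A => (A.map σ)ᵀ) g 1 := by
  rw [S2677.mem_GU_iff hq, Sim, one_smul, ← Matrix.transpose_inj, Matrix.transpose_mul,
    Matrix.transpose_transpose, Matrix.transpose_one]

theorem isStar_sp (m : ℕ) : IsStar (RingHom.id F) fun A : Matrix (Fin m ⊕ Fin m) (Fin m ⊕ Fin m) F =>
    -Matrix.J (Fin m) F * Aᵀ * Matrix.J (Fin m) F :=
  ⟨fun A B => by simp [mul_add, add_mul, add_comm],
    fun A B => by
      simp only [Matrix.transpose_mul, neg_mul, mul_neg, mul_assoc, neg_neg]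
      rw [← mul_assoc (Matrix.J _ _) (Matrix.J _ _), Matrix.J_squared]; simp,
    fun c A => by simp, by simp [Matrix.J_squared]⟩

theorem mem_sp_sim {m : ℕ} {g : GL (Fin m ⊕ Fin m) F} :
    g ∈ spGL m F ↔ Sim (fun A => -Matrix.J (Fin m) F * Aᵀ * Matrix.J (Fin m) F) g 1 := by
  rw [mem_spGL', SymplecticGroup.mem_iff', Sim, one_smul]
  constructor
  · intro h
    rw [mul_assoc, mul_assoc, ← mul_assoc g.1ᵀ, h]; simp [Matrix.J_squared]
  · intro h
    have := congrArg (Matrix.J (Fin m) F * ·) h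
    simp only [neg_mul, mul_neg, mul_assoc, mul_one] at this
    rw [← mul_assoc (Matrix.J _ _) (Matrix.J _ _), Matrix.J_squared] at this
    simpa [mul_assoc] using this

theorem exists_tau {p : ℕ} [Fact p.Prime] [CharP F p] (hp2 : p ≠ 2) (h : p % 5 = 1 ∨ p % 5 = 4) :
    ∃ τ : F, τ ^ 2 + τ - 1 = 0 ∧ τ ^ p = τ := by
  haveI : Fact (Nat.Prime 5) := ⟨Nat.prime_five⟩
  have h1 : IsSquare ((p : ℕ) : ZMod 5) := by
    rw [← ZMod.natCast_mod p 5]
    rcases h with h | h <;> rw [h]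
    exacts [⟨1, rfl⟩, ⟨2, rfl⟩]
  obtain ⟨s, hs⟩ := (ZMod.exists_sq_eq_prime_iff_of_mod_four_eq_one (p := 5) (q := p) (by norm_num)
    hp2).1 h1
  have h2 : (2 : ZMod p) ≠ 0 := two_ne_zero_of_charP (p := p) (by
    have := (Fact.out : p.Prime).two_le; omega)
  refine ⟨ZMod.castHom (dvd_refl p) F ((s - 1) / 2), ?_, by rw [← map_pow, ZMod.pow_card]⟩
  have : ((s - 1) / 2) ^ 2 + (s - 1) / 2 - 1 = 0 := by
    field_simp
    push_cast at hs
    linear_combination -hs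
  have := congrArg (ZMod.castHom (dvd_refl p) F) this
  rwa [map_sub, map_add, map_pow, map_one, map_zero] at this

theorem ord_four_iff {p : ℕ} : orderOf (p : ZMod 5) = 4 ↔ (p % 5 = 2 ∨ p % 5 = 3) := by
  rw [← ZMod.natCast_mod p 5]
  have : p % 5 < 5 := Nat.mod_lt _ (by norm_num)
  generalize p % 5 = k at *
  rw [orderOf_eq_iff (by norm_num)]
  interval_cases k <;> decide

end Cfsg.Agent.H13.XE
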