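import Mathlib
import Cfsg.Agent.H13.XN7

/-! Normalisers of extraspecial groups of order 27 in dimension three. -/

set_option autoImplicit false

namespace Cfsg.Agent.H13.XE

open Module Polynomial Cfsg.Geo L0 H10 H11
open scoped MatrixGroups Matrix commutatorElement

variable {ι : Type} [Fintype ι] [DecidableEq ι] {F : Type*} [Field F]

local notation "φ" => algebraMap F (AlgebraicClosure F)

theorem eig_of_ev {x : GL ι F} {α : F} (h : φ α ∈ Ev x) : (ρ x).eigenspace α ≠ ⊥ := by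
  have h1 := isRoot_of_mem_roots h
  rw [IsRoot, eval_map_algebraMap, aeval_algebraMap_apply, map_eq_zero_iff _ φ_inj,
    coe_aeval_eq_eval, ← Matrix.charpoly_toLin'] at h1
  exact (End.hasEigenvalue_iff_isRoot_charpoly _ _).2 h1

theorem inv_top (h3 : Fintype.card ι = 3) {a b : GL ι F} {l : F} (hl : l ^ 3 = 1) (hl1 : l ≠ 1)
    {U : Submodule F (ι → F)} (hU : U ≠ ⊥) (ha : ∀ v ∈ U, ρ a v ∈ U) (hb : ∀ v ∈ U, ρ b v ∈ U)
    (h : ∀ v ∈ U, ρ a (ρ b v) = l • ρ b (ρ a v)) : U = ⊤ := by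
  have h1 : (ρ a).restrict ha * (ρ b).restrict hb = l • ((ρ b).restrict hb * (ρ a).restrict ha) :=
    LinearMap.ext fun v => Subtype.ext (h v v.2)
  have hd : ∀ (x : GL ι F) (hx : ∀ v ∈ U, ρ x v ∈ U), LinearMap.det ((ρ x).restrict hx) ≠ 0 :=
    fun x hx => (LinearMap.isUnit_det _ ((LinearMap.isUnit_iff_ker_eq_bot _).2
      (LinearMap.ker_eq_bot.2 fun u v e => Subtype.ext (ρ_inj x (congrArg Subtype.val e))))).ne_zero
  have h2 := congrArg LinearMap.det h1
  rw [LinearMap.det_smul, map_mul, map_mul, mul_comm (LinearMap.det ((ρ b).restrict hb))] at h2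
  have h4 : l ^ finrank F U = 1 :=
    mul_right_cancel₀ (mul_ne_zero (hd a ha) (hd b hb)) (h2.symm.trans (one_mul _).symm)
  haveI := Fact.mk Nat.prime_three
  have h5 := orderOf_dvd_of_pow_eq_one h4
  rw [orderOf_eq_prime hl hl1] at h5
  have h6 := Submodule.finrank_le U
  have h7 : finrank F U ≠ 0 := fun e => hU (Submodule.finrank_eq_zero.1 e)
  refine Submodule.eq_top_of_finrank_eq ?_
  rw [finrank_pi, h3] at h6 ⊢
  omega

theorem eig_comm {x y : GL ι F} (h : x * y = y * x) (c : F) :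
    ∀ v ∈ (ρ x).eigenspace c, ρ y v ∈ (ρ x).eigenspace c := fun v hv => by
  rw [End.mem_eigenspace_iff] at hv ⊢
  rw [← End.mul_apply, ← map_mul, h, map_mul, End.mul_apply, hv, map_smul]

theorem scalar_of_eig {x : GL ι F} {c : F} (h : (ρ x).eigenspace c = ⊤) : x.1 = c • 1 := by
  apply Matrix.toLin'.injective
  rw [map_smul, Matrix.toLin'_one]
  exact LinearMap.ext fun v => End.mem_eigenspace_iff.1 (h ▸ Submodule.mem_top : v ∈ (ρ x).eigenspace c)

theorem order27 {G : Type*} [Group G] (hG : Nat.card G = 27) (hn : ¬ IsMulCommutative G) :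
    Nat.card (Subgroup.center G) = 3 ∧ ∀ x y : G, x * y * x⁻¹ * y⁻¹ ∈ Subgroup.center G := by
  haveI := Fact.mk Nat.prime_three
  haveI : Finite G := Nat.finite_of_card_ne_zero (by omega)
  have hp : IsPGroup 3 G := IsPGroup.of_card (n := 3) hG
  haveI : Nontrivial G := Finite.one_lt_card_iff_nontrivial.1 (by omega)
  have h1 := Finite.one_lt_card_iff_nontrivial.2 hp.center_nontrivial
  have h2 := (Subgroup.center G).index_mul_card
  have h3 : Nat.card (Subgroup.center G) = 3 := by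
    have hd := Subgroup.card_subgroup_dvd_card (Subgroup.center G)
    rw [hG] at hd h2
    obtain ⟨k, hk, e⟩ := (Nat.dvd_prime_pow Nat.prime_three (m := 3)).1 hd
    rw [e] at h1 h2 ⊢
    have key : (Subgroup.center G).index ∣ 3 → False := fun h => by
      haveI : IsCyclic (G ⧸ Subgroup.center G) := isCyclic_of_card_dvd_prime (p := 3) h
      exact hn ((QuotientGroup.mk' (Subgroup.center G)).isMulCommutative_of_isCyclic_of_ker_le_center
        (by simp))
    interval_cases k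
    · omega
    · rfl
    · have : (Subgroup.center G).index = 3 := by omega
      exact (key (this ▸ dvd_rfl)).elim
    · have : (Subgroup.center G).index = 1 := by omega
      exact (key (this ▸ one_dvd _)).elim
  refine ⟨h3, fun x y => ?_⟩
  have h4 : Nat.card (G ⧸ Subgroup.center G) = 3 ^ 2 := by
    rw [h3, hG] at h2
    change (Subgroup.center G).index = _
    omega
  have := (IsPGroup.isMulCommutative_of_card_eq_prime_sq h4).is_comm.comm
    (x : G ⧸ Subgroup.center G) y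
  rw [← QuotientGroup.eq_one_iff]
  simp [this]

section R27
variable [Nonempty ι] (h3 : Fintype.card ι = 3) (h3' : (3 : F) ≠ 0) {ω : F} (hω : ω ^ 2 + ω + 1 = 0)
include h3 h3' hω

theorem cf27 {R : Subgroup (GL ι F)} (hR : Nat.card R = 27) (he : ∀ x ∈ R, x ^ 3 = 1)
    (hn : ¬ IsMulCommutative R) : CF 3 R ∧ Nat.card ↥(R ⊓ scalars ι F) = 3 ∧
      ∃ a ∈ R, ∃ b ∈ R, ∃ l : Fˣ, (l : F) ^ 2 + l + 1 = 0 ∧ a * b = sc ι l * (b * a) := by
  haveI := Fact.mk Nat.prime_three
  obtain ⟨hZ, hcom⟩ := order27 hR hn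
  obtain ⟨a, b, hab⟩ : ∃ a b : R, a * b ≠ b * a := by
    by_contra! h
    exact hn ⟨⟨h⟩⟩
  have hω' : φ ω ^ 2 + φ ω + 1 = 0 := by simpa using congrArg φ hω
  have hω3 : ω ^ 3 = 1 := by linear_combination (ω - 1) * hω
  have hev : ∀ x : GL ι F, x ^ 3 = 1 → ∀ t ∈ Ev x, ∃ α : F, α ^ 3 = 1 ∧ φ α = t := by
    intro x hx t ht
    rcases cube_cases hω' (SSm.ev_root ⟨3, h3', hx⟩ hx t ht) with rfl | rfl | rfl
    · exact ⟨1, one_pow _, map_one _⟩
    · exact ⟨ω, hω3, rfl⟩
    · exact ⟨ω ^ 2, by linear_combination (ω ^ 3 + 1) * hω3, map_pow _ _ _⟩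
  set z : R := a * b * a⁻¹ * b⁻¹ with hz
  have hzc : ∀ y ∈ R, z.1 * y = y * z := fun y hy =>
    (congrArg Subtype.val (Subgroup.mem_center_iff.1 (hcom a b) ⟨y, hy⟩)).symm
  have hzab : a.1 * b = z * (b * a) := by rw [hz]; simp [mul_assoc]
  have hz1 : z ≠ 1 := fun e => hab (Subtype.ext (by simpa [e] using hzab))
  obtain ⟨t, ht, ht1⟩ : ∃ t ∈ Ev z.1, t ≠ 1 := by
    by_contra! h
    refine hz1 (Subtype.ext (Units.ext ?_))
    have := (SSm.eq_iff ⟨3, h3', he z z.2⟩ 1).2 (by simpa using h)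
    simpa using this
  obtain ⟨l, hl, rfl⟩ := hev _ (he z z.2) t ht
  have hl1 : l ≠ 1 := fun e => ht1 (by rw [e, map_one])
  have hzs := scalar_of_eig (inv_top h3 hl hl1 (eig_of_ev ht) (eig_comm (hzc a a.2) l)
    (eig_comm (hzc b b.2) l) fun v hv => by
      rw [← End.mul_apply, ← map_mul, hzab, map_mul, map_mul, End.mul_apply, End.mul_apply]
      exact End.mem_eigenspace_iff.1 (eig_comm (hzc b b.2) l _ (eig_comm (hzc a a.2) l v hv)))
  obtain ⟨l, rfl, hzl⟩ := unit_of_pow hzs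
  rw [hzl] at hzab
  have hlu : l ^ 3 = 1 := Units.ext (by simpa using hl)
  have hcent : ∀ x : GL ι F, (∀ y ∈ R, x * y = y * x) → x ∈ scalars ι F := by
    intro x hx
    obtain ⟨t, ht⟩ := Multiset.card_pos_iff_exists_mem.1 (show 0 < (Ev a.1).card by
      rw [ev_card, h3]; norm_num)
    obtain ⟨α, hα, rfl⟩ := hev _ (he a a.2) t ht
    have hα0 : α ≠ 0 := by rintro rfl; simp at hα
    have h1 := eig_small Nat.prime_three hlu (fun e => hl1 (by rw [e]; rfl)) hzab hα0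
    obtain ⟨v, hv, hv0⟩ := Submodule.exists_mem_ne_zero_of_ne_bot (eig_of_ev ht)
    have h2 : finrank F ((ρ a.1).eigenspace α) = 1 := by
      have : finrank F ((ρ a.1).eigenspace α) ≠ 0 := fun e =>
        eig_of_ev ht (Submodule.finrank_eq_zero.1 e)
      omega
    obtain ⟨c, hc⟩ := (finrank_eq_one_iff_of_nonzero' (⟨v, hv⟩ : (ρ a.1).eigenspace α)
      (fun e => hv0 (congrArg Subtype.val e))).1 h2 ⟨_, eig_comm (hx a a.2).symm α v hv⟩
    have h4 : v ∈ (ρ x).eigenspace c := End.mem_eigenspace_iff.2 (congrArg Subtype.val hc).symm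
    refine scalar_iff.2 ⟨c, scalar_of_eig (inv_top h3 hl hl1 (fun e => hv0 (by simpa [e] using h4))
      (eig_comm (hx a a.2) c) (eig_comm (hx b b.2) c) fun v _ => ?_)⟩
    rw [← End.mul_apply, ← map_mul, hzab, map_mul, map_mul, ρ_sc]
    simp
  refine ⟨⟨fun x hx y hy => ?_, hcent⟩, (card_inf_scalars hcent).trans hZ, a, a.2, b, b.2, l, ?_, hzab⟩
  · obtain ⟨u, hu⟩ := mem_scalars.1 (hcent (x * y * x⁻¹ * y⁻¹) fun w hw =>
      (congrArg Subtype.val (Subgroup.mem_center_iff.1 (hcom ⟨x, hx⟩ ⟨y, hy⟩) ⟨w, hw⟩)).symm)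
    refine ⟨u, sc_inj (ι := ι) ?_, by rw [hu]; simp [mul_assoc]⟩
    rw [map_pow, hu, map_one]
    exact he _ (mul_mem (mul_mem (mul_mem hx hy) (inv_mem hx)) (inv_mem hy))
  · have : ((l : F) - 1) * ((l : F) ^ 2 + l + 1) = 0 := by linear_combination hl
    exact (mul_eq_zero.1 this).resolve_left (sub_ne_zero.2 hl1)

theorem ev_mem27 {R : Subgroup (GL ι F)} (hcf : CF 3 R) (he : ∀ x ∈ R, x ^ 3 = 1) {x : GL ι F}
    (hx : x ∈ R) (hxs : x ∉ scalars ι F) : Ev x = {1, φ ω, φ ω ^ 2} := by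
  have hω' : φ ω ^ 2 + φ ω + 1 = 0 := by simpa using congrArg φ hω
  have h3K : (3 : AlgebraicClosure F) ≠ 0 := castK (m := 3) h3'
  rcases three_three h3 h3' (he x hx) (fun c e => hxs (scalar_iff.2 ⟨c, e⟩)) hω with
    e | ⟨α, hα, e⟩
  · exact e
  · exfalso
    have h1 := SSm.ev_sum ⟨3, h3', he x hx⟩
    have hα0 : φ α ≠ 0 := by rw [_root_.map_ne_zero]; rintro rfl; simp at hα
    rw [hcf.tr_zero hx hxs, map_zero] at h1
    rcases e with e | e <;> rw [e] at h1 <;> simp at h1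
    · have : φ α * (φ ω + 2) = 0 := by linear_combination -h1
      have := (mul_eq_zero.1 this).resolve_left hα0
      exact h3K (by linear_combination hω' - (φ ω - 1) * this)
    · have : φ α * (φ ω ^ 2 + 2) = 0 := by linear_combination -h1
      have := (mul_eq_zero.1 this).resolve_left hα0
      exact h3K (by linear_combination (φ ω + 2) * this - φ ω * hω' - hω')

theorem le_sl27 {R : Subgroup (GL ι F)} (hcf : CF 3 R) (he : ∀ x ∈ R, x ^ 3 = 1) :
    R ≤ specialLinear ι F := by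
  intro x hx
  rw [H18.El.mem_sl]
  by_cases hxs : x ∈ scalars ι F
  · obtain ⟨u, rfl⟩ := mem_scalars.1 hxs
    have : u ^ 3 = 1 := sc_inj (ι := ι) (by rw [map_pow, he _ hx, map_one])
    rw [sc_coe, Matrix.det_smul, h3, ← Units.val_pow_eq_pow_val, this]; simp
  · have h1 := SSm.ev_det ⟨3, h3', he x hx⟩
    rw [ev_mem27 h3 h3' hω hcf he hx hxs] at h1
    have hω3 : φ ω ^ 3 = 1 := by
      rw [← map_pow, show ω ^ 3 = 1 by linear_combination (ω - 1) * hω, map_one]
    apply φ_inj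
    rw [h1]; simp; linear_combination hω3

end R27

theorem exists_t [Nonempty ι] (h3 : Fintype.card ι = 3) (h3' : (3 : F) ≠ 0) (h2 : (2 : F) ≠ 0)
    {R : Subgroup (GL ι F)} [Finite R] (hcf : CF 3 R) (he : ∀ x ∈ R, x ^ 3 = 1) {a b : GL ι F}
    (ha : a ∈ R) (hb : b ∈ R) {ω : Fˣ} (hω : (ω : F) ^ 2 + ω + 1 = 0)
    (hab : a * b = sc ι ω * (b * a)) :
    ∃ t ∈ Subgroup.normalizer (R : Set (GL ι F)), t ^ 3 = 1 ∧ Ev t = {1, 1, φ ω} ∧
      t * a = a * t ∧ t * b * t⁻¹ = sc ι (ω ^ 2) * (b * a) ∧ Iso R (fun σ => σ ω = ω ^ 2) t := by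
  have hω1 : (ω : F) ≠ 1 := fun e => h3' (by rw [e] at hω; linear_combination hω)
  have hω3 : (ω : F) ^ 3 = 1 := by linear_combination ((ω : F) - 1) * hω
  have a3 : a.1 * (a.1 * a.1) = 1 := by
    rw [← Units.val_mul, ← Units.val_mul, ← pow_three, he a ha, Units.val_one]
  have a3' : ∀ M, a.1 * (a.1 * (a.1 * M)) = M := fun M => by
    rw [← mul_assoc, ← mul_assoc, mul_assoc a.1, a3, one_mul]
  have hm : ∀ s s' : F, (1 + (s / 3) • (1 + a.1 + a.1 * a.1)) * (1 + (s' / 3) • (1 + a.1 + a.1 * a.1))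
      = 1 + ((s + s' + s * s') / 3) • (1 + a.1 + a.1 * a.1) := fun s s' => by
    simp only [mul_add, add_mul, one_mul, mul_one, smul_mul_assoc, mul_smul_comm, mul_assoc, a3, a3']
    match_scalars <;> field_simp <;> ring
  have e0 : (ω : F) - 1 + (ω ^ 2 - 1) + (ω - 1) * (ω ^ 2 - 1) = 0 := by linear_combination hω3
  let t : GL ι F := ⟨1 + (((ω : F) - 1) / 3) • (1 + a.1 + a.1 * a.1),
    1 + (((ω : F) ^ 2 - 1) / 3) • (1 + a.1 + a.1 * a.1), by rw [hm, e0]; simp, by
      rw [hm, add_comm (_ - _), mul_comm (_ - _), e0]; simp⟩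
  have ht : t.1 = 1 + (((ω : F) - 1) / 3) • (1 + a.1 + a.1 * a.1) := rfl
  have hab' : a.1 * b.1 = (ω : F) • (b.1 * a.1) := by
    rw [← Units.val_mul, hab, coe_sc_mul, Units.val_mul]
  have hab'' : ∀ M, a.1 * (b.1 * M) = (ω : F) • (b.1 * (a.1 * M)) := fun M => by
    rw [← mul_assoc, hab', smul_mul_assoc, mul_assoc]
  have hcom : ∀ x : GL ι F, x * a = a * x → t * x = x * t := fun x hx => Units.ext (by
    have h1 : a.1 * x.1 = x.1 * a.1 := congrArg Units.val hx.symm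
    have h2 : a.1 * (x.1 * a.1) = x.1 * (a.1 * a.1) := by rw [← mul_assoc, h1, mul_assoc]
    simp only [Units.val_mul, ht, mul_add, add_mul, one_mul, mul_one, smul_mul_assoc,
      mul_smul_comm, mul_assoc, h1, h2])
  have htb : t * b * t⁻¹ = sc ι (ω ^ 2) * (b * a) := by
    rw [mul_inv_eq_iff_eq_mul, mul_assoc]
    apply Units.ext
    rw [coe_sc_mul]
    simp only [Units.val_mul, ht, mul_add, add_mul, one_mul, mul_one, smul_mul_assoc,
      mul_smul_comm, mul_assoc, hab', hab'', a3, Units.val_pow_eq_pow_val]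
    match_scalars <;> field_simp
    · linear_combination hω - hω3
    · linear_combination -hω
  have hωR : sc ι ω ∈ R := by
    have : sc ι ω = a * b * (b * a)⁻¹ := by rw [hab, mul_inv_cancel_right]
    exact this ▸ mul_mem (mul_mem ha hb) (inv_mem (mul_mem hb ha))
  have hbR : t * b * t⁻¹ ∈ R := by
    rw [htb, map_pow]; exact mul_mem (pow_mem hωR _) (mul_mem hb ha)
  have has : a ∉ scalars ι F := by
    intro h
    obtain ⟨u, rfl⟩ := mem_scalars.1 h
    rw [sc_comm u b] at hab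
    exact hω1 (congrArg Units.val (sc_inj (ι := ι) ((mul_right_cancel
      (hab.symm.trans (one_mul _).symm)).trans (map_one _).symm)))
  have haa : a * a ∉ scalars ι F := fun h => has (by
    have := Subgroup.mul_mem _ h h
    rwa [show a * a * (a * a) = a ^ 3 * a by simp [pow_succ, mul_assoc], he a ha, one_mul] at this)
  have ht3 : t ^ 3 = 1 := Units.ext (by
    rw [Units.val_pow_eq_pow_val, pow_three, ht, hm, hm,
      show (ω : F) - 1 + (ω - 1 + (ω - 1) + (ω - 1) * (ω - 1)) +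
        (ω - 1) * (ω - 1 + (ω - 1) + (ω - 1) * (ω - 1)) = 0 by linear_combination hω3]
    simp)
  refine ⟨t, Subgroup.mem_normalizer_fintype fun x hx => ?_, ht3, ?_, hcom a rfl, htb,
    fun σ st S hs hσ => ?_⟩
  · obtain ⟨z, hz, hax⟩ := hcf.comm a ha x hx
    obtain ⟨j, rfl⟩ : ∃ j : ℕ, z = ω ^ j := by
      rcases cube_cases hω (show (z : F) ^ 3 = 1 by simpa using congrArg Units.val hz) with e | e | e
      exacts [⟨0, Units.ext (by simpa using e)⟩, ⟨1, Units.ext (by simpa using e)⟩,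
        ⟨2, Units.ext (by simpa using e)⟩]
    have h1 : a * b ^ j = sc ι (ω ^ j) * (b ^ j * a) := by
      have h2 : b * a = sc ι ω⁻¹ * (a * b) := by rw [hab, ← mul_assoc, ← map_mul]; simp
      rw [H26.pow_mul_class2 h2 (sc_comm _) j, ← mul_assoc, ← map_pow, ← map_mul]; simp
    have h4 : (b ^ j)⁻¹ * x * a = a * ((b ^ j)⁻¹ * x) := by
      have h5 : x * a = (sc ι (ω ^ j))⁻¹ * (a * x) := by rw [hax]; simp
      have h6 : a * (b ^ j)⁻¹ = (sc ι (ω ^ j))⁻¹ * ((b ^ j)⁻¹ * a) := by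
        rw [eq_inv_mul_iff_mul_eq, eq_inv_mul_iff_mul_eq, ← mul_assoc, ← sc_comm, mul_assoc,
          ← mul_assoc (b ^ j), ← mul_assoc, ← h1]
        simp
      rw [mul_assoc, h5, ← mul_assoc a, h6, ← map_inv, ← mul_assoc, ← sc_comm]
      simp only [mul_assoc]
    have h7 : t * x * t⁻¹ = (t * b * t⁻¹) ^ j * ((b ^ j)⁻¹ * x) := by
      rw [conj_pow, mul_assoc (t * b ^ j), inv_mul_eq_of_eq_mul (a := t)
        (c := (b ^ j)⁻¹ * x * t⁻¹) (by rw [← mul_assoc, hcom _ h4]; simp)]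
      simp [mul_assoc]
    rw [h7]
    exact mul_mem (pow_mem hbR j) (mul_mem (inv_mem (pow_mem hb j)) hx)
  · obtain ⟨k, l, hkl, e⟩ := ev_two (x := t) (a := 1) (b := ω) (by
      rw [ht]
      simp only [mul_add, add_mul, mul_sub, sub_mul, one_mul, mul_one, smul_mul_assoc,
        mul_smul_comm, mul_assoc, a3, a3']
      match_scalars <;> field_simp <;> ring)
    have h1 := SSm.tr_two ⟨3, h3', ht3⟩ e
    have t1 := hcf.tr_zero ha has
    have t2 := hcf.tr_zero (mul_mem ha ha) haa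
    rw [Units.val_mul] at t2
    rw [ht] at h1
    simp [t1, t2, h3] at h1
    rw [h3] at hkl
    have : l < 4 := by omega
    obtain rfl : k = 3 - l := by omega
    have h5 : ((l : F) - 1) * (ω - 1) = 0 := by
      rw [Nat.cast_sub (by omega)] at h1
      field_simp at h1
      push_cast at h1
      linear_combination -h1
    have h6 := (mul_eq_zero.1 h5).resolve_right (sub_ne_zero.2 hω1)
    interval_cases l
    · simp at h6
    · rw [e, map_one]; rfl
    · exact absurd (by push_cast at h6; linear_combination h6) (one_ne_zero (α := F))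
    · exact absurd (by push_cast at h6; linear_combination h6) h2
  · have h1 : st a.1 = a.1 * a.1 := by
      have : st a.1 * a.1 = a.1 * a.1 * a.1 := by rw [hs a ha, mul_assoc, a3, one_smul]
      exact (Units.mul_left_inj a).1 this
    unfold Sim
    rw [one_smul]
    suffices h : st t.1 = 1 + (((ω : F) ^ 2 - 1) / 3) • (1 + a.1 + a.1 * a.1) by
      rw [h]; exact t.inv_val
    rw [ht, S.add, S.one, S.smul, S.add, S.add, S.one, S.mul, h1, map_div₀, map_sub, map_one,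
      map_ofNat, hσ]
    simp only [mul_assoc, a3']
    module

theorem cube_inverts {Q : Type*} [Group Q] {A B S T : Q} (h : A * B = B * A) (h1 : S * A = A * S)
    (h2 : S * B * S⁻¹ = B * A) (h3 : T * B = B * T) (h4 : T * A⁻¹ * T⁻¹ = A⁻¹ * B) :
    (S * T) ^ 3 * A * ((S * T) ^ 3)⁻¹ = A⁻¹ := by
  let u := MulAut.conj (S * T)
  have s1 : S * A * S⁻¹ = A := by rw [h1]; simp
  have t1 : T * A * T⁻¹ = B⁻¹ * A := by
    have := congrArg Inv.inv h4
    simpa [mul_assoc] using this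
  have e1 : u A = B⁻¹ := by
    change S * T * A * (S * T)⁻¹ = _
    calc _ = S * (T * A * T⁻¹) * S⁻¹ := by group
      _ = (S * B * S⁻¹)⁻¹ * (S * A * S⁻¹) := by rw [t1]; group
      _ = B⁻¹ := by rw [h2, s1, ← h]; group
  have e2 : u B = B * A := by
    change S * T * B * (S * T)⁻¹ = _
    calc _ = S * (T * B) * T⁻¹ * S⁻¹ := by group
      _ = _ := by rw [h3, ← h2]; group
  have : (u ^ 3) A = A⁻¹ := by
    rw [pow_three, MulAut.mul_apply, MulAut.mul_apply, e1, map_inv, e2, map_inv, map_mul, e1, e2,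
      ← h]
    group
  rw [← this, ← map_pow]
  rfl

theorem exists_invol [Nonempty ι] [Finite F] (h3 : Fintype.card ι = 3) (h3' : (3 : F) ≠ 0)
    (h2 : (2 : F) ≠ 0) {R : Subgroup (GL ι F)} (hcf : CF 3 R) (he : ∀ x ∈ R, x ^ 3 = 1)
    {a b : GL ι F} (ha : a ∈ R) (hb : b ∈ R) {ω : Fˣ} (hω : (ω : F) ^ 2 + ω + 1 = 0)
    (hab : a * b = sc ι ω * (b * a)) :
    ∃ y ∈ Subgroup.normalizer (R : Set (GL ι F)), y * y = 1 ∧ y ≠ 1 ∧ y.1.det = 1 ∧
      Iso R (fun σ => σ ω = ω ^ 2) y := by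
  have hω1 : (ω : F) ≠ 1 := fun e => h3' (by rw [e] at hω; linear_combination hω)
  have hω3 : (ω : F) ^ 3 = 1 := by linear_combination ((ω : F) - 1) * hω
  obtain ⟨s, s1, s2, s3, s4, s5, s6⟩ := exists_t h3 h3' h2 hcf he ha hb hω hab
  obtain ⟨t, t1, t2, t3, t4, t5, t6⟩ := exists_t h3 h3' h2 hcf he hb (inv_mem ha) hω (by
    rw [mul_inv_eq_iff_eq_mul, mul_assoc, mul_assoc, sc_comm, mul_assoc, ← sc_comm, ← hab]; simp)
  have hd : ∀ u : GL ι F, u ^ 3 = 1 → Ev u = {1, 1, φ ω} → u.1.det = ω := fun u h1 h2 =>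
    φ_inj (by rw [SSm.ev_det ⟨3, h3', h1⟩, h2]; simp)
  let π := QuotientGroup.mk' (scalars ι F)
  have hπ : ∀ (z : Fˣ) x, π (sc ι z * x) = π x := fun z x => by
    rw [map_mul, show π (sc ι z) = 1 from (QuotientGroup.eq_one_iff _).2 (sc_mem z), one_mul]
  have key := cube_inverts (A := π a) (B := π b) (S := π s) (T := π t)
    (by rw [← map_mul, hab, hπ, map_mul]) (by rw [← map_mul, s4, map_mul])
    (by rw [← map_inv, ← map_mul, ← map_mul, s5, hπ, map_mul]) (by rw [← map_mul, t4, map_mul])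
    (by rw [← map_inv, ← map_inv, ← map_mul, ← map_mul, t5, hπ, map_mul])
  rw [← map_mul, ← map_pow] at key
  set y := (s * t) ^ 3 with hy
  have hev : 2 ∣ orderOf y := by
    by_contra hodd
    obtain ⟨k, hk⟩ : Odd (orderOf y) := Nat.not_even_iff_odd.1 (mt even_iff_two_dvd.1 hodd)
    have h1 : ∀ k : ℕ, π y ^ (2 * k + 1) * π a * (π y ^ (2 * k + 1))⁻¹ = (π a)⁻¹ := by
      intro k
      induction k with
      | zero => simpa using key
      | succ k ih =>
        have key' : π y * (π a)⁻¹ * (π y)⁻¹ = π a := by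
          have := congrArg Inv.inv key
          simpa [mul_assoc] using this
        calc _ = π y * (π y * (π y ^ (2 * k + 1) * π a * (π y ^ (2 * k + 1))⁻¹) * (π y)⁻¹) *
            (π y)⁻¹ := by
              rw [show 2 * (k + 1) + 1 = 2 * k + 1 + 1 + 1 by ring, pow_succ', pow_succ']
              simp [mul_assoc]
          _ = _ := by rw [ih, key', key]
    have h4 := h1 k
    rw [← map_pow, ← hk, pow_orderOf_eq_one, map_one, one_mul, inv_one, mul_one] at h4
    have h5 : π a = 1 := by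
      have h6 : π a ^ 3 = 1 := by rw [← map_pow, he a ha, map_one]
      rw [pow_three, ← h6] at *
      calc π a = π a * (π a * (π a)⁻¹) := by simp
        _ = π a * (π a * π a) := by rw [← h4]
        _ = _ := rfl
    obtain ⟨u, rfl⟩ := mem_scalars.1 ((QuotientGroup.eq_one_iff _).1 h5)
    rw [sc_comm u b] at hab
    exact hω1 (congrArg Units.val (sc_inj (ι := ι) ((mul_right_cancel
      (hab.symm.trans (one_mul _).symm)).trans (map_one _).symm)))
  obtain ⟨k, hk⟩ := hev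
  have hpos := orderOf_pos y
  refine ⟨y ^ k, pow_mem (pow_mem (mul_mem s1 t1) _) _, by
    rw [← pow_add, ← two_mul, ← hk, pow_orderOf_eq_one],
    pow_ne_one_of_lt_orderOf (by omega) (by omega), ?_, fun σ st S hs hσ => ?_⟩
  · rw [Units.val_pow_eq_pow_val, Matrix.det_pow, hy, Units.val_pow_eq_pow_val, Matrix.det_pow,
      Units.val_mul, Matrix.det_mul, hd s s2 s3, hd t t2 t3, mul_pow, hω3]
    simp
  · have h1 : Sim st (s * t) 1 := by simpa using (s6 σ st S hs hσ).mul S (t6 σ st S hs hσ)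
    have h4 : ∀ (u : GL ι F) (m : ℕ), Sim st u 1 → Sim st (u ^ m) 1 := fun u m hu => by
      induction m with
      | zero => simp [Sim, S.one]
      | succ m ih => rw [pow_succ]; simpa using ih.mul S hu
    exact h4 _ _ (h4 _ _ h1)

theorem n3 [Nonempty ι] {R : Subgroup (GL ι F)} (hcf : CF 3 R) (hR : Nat.card R = 27)
    (hZ : Nat.card ↥(R ⊓ scalars ι F) = 3) {g : GL ι F}
    (hg : g ∈ Subgroup.normalizer (R : Set (GL ι F))) {r : ℕ} [hr : Fact r.Prime] (h2 : r ≠ 2)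
    (h3 : r ≠ 3) {z : Fˣ} (hz : g ^ r = sc ι z) : g ∈ scalars ι F := by
  haveI : Finite R := Nat.finite_of_card_ne_zero (by omega)
  set C := R ⊓ Subgroup.centralizer {g} with hC
  have hZC : R ⊓ scalars ι F ≤ C := by
    rintro _ ⟨h1, t, rfl⟩
    exact ⟨h1, Subgroup.mem_centralizer_singleton_iff.2 (sc_comm t g)⟩
  have h1 := Subgroup.card_dvd_of_le hZC
  have h4 := Subgroup.card_dvd_of_le (inf_le_left : C ≤ R)
  have hmod := fix_modEq (D := R) (g := g) (fun e he => (Subgroup.mem_normalizer_iff.1 hg e).1 he)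
    (r := r) fun e _ => by rw [hz, sc_comm]
  rw [← hC, hR] at hmod
  rw [hR] at h4
  rw [hZ] at h1
  have key : ∀ i j : ℕ, ¬ r ∣ 2 ^ i * 3 ^ j := fun i j h => by
    rcases (Nat.Prime.dvd_mul hr.out).1 h with h | h
    · exact h2 ((Nat.prime_dvd_prime_iff_eq hr.out Nat.prime_two).1 (hr.out.dvd_of_dvd_pow h))
    · exact h3 ((Nat.prime_dvd_prime_iff_eq hr.out Nat.prime_three).1 (hr.out.dvd_of_dvd_pow h))
  obtain ⟨k, hk, e⟩ := (Nat.dvd_prime_pow Nat.prime_three (m := 3)).1 h4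
  rw [e] at h1 hmod
  interval_cases k
  · omega
  · exact absurd ((Nat.modEq_iff_dvd' (by norm_num)).1 hmod.symm) (key 3 1)
  · exact absurd ((Nat.modEq_iff_dvd' (by norm_num)).1 hmod.symm) (key 1 2)
  · have : C = R := Subgroup.eq_of_le_of_card_ge inf_le_left (by rw [e, hR]; norm_num)
    exact hcf.cent g fun y hy =>
      (Subgroup.mem_centralizer_singleton_iff.1 ((this ▸ hy : y ∈ C).2)).symm

theorem fwd3 [Nonempty ι] [Finite F] (h3 : Fintype.card ι = 3) {G R : Subgroup (GL ι F)}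
    (hcf : CF 3 R) (hR : Nat.card R = 27) (hZ : Nat.card ↥(R ⊓ scalars ι F) = 3)
    (hG : G ≤ specialLinear ι F) (hRG : R ≤ G) {r : ℕ} [hr : Fact r.Prime]
    (hΩ : r ∣ (Subgroup.normalizer (R : Set (GL ι F))).relIndex G) (E : ELg G R r) :
    r = 2 ∨ (r = 3 ∧ 81 ∣ Nat.card G) := by
  by_cases h2 : r = 2
  · exact .inl h2
  by_cases h3' : r = 3
  · subst h3'
    refine .inr ⟨rfl, ?_⟩
    have h1 := Subgroup.card_dvd_of_le (le_inf Subgroup.le_normalizer hRG)
    rw [hR, ← Nat.card_congr (Subgroup.subgroupOfEquivOfLe inf_le_right).toEquiv,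
      Subgroup.inf_subgroupOf_right] at h1
    rw [← ((Subgroup.normalizer (R : Set (GL ι F))).subgroupOf G).index_mul_card]
    exact Nat.mul_dvd_mul hΩ h1
  obtain ⟨x, hxG, hx, hns⟩ := exists_order hG hΩ (by
    rw [h3]; exact (Nat.coprime_primes hr.out Nat.prime_three).2 h3')
  obtain ⟨g, -, hg⟩ := E x hxG ⟨1, by rw [hx]; simp⟩ hns
  obtain ⟨a1, a2, -⟩ := conj_facts g hx hns
  exact absurd (n3 hcf hR hZ hg h2 h3' a1) a2

theorem bwd3 [Nonempty ι] [Finite F] (h3 : Fintype.card ι = 3) (h3' : (3 : F) ≠ 0)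
    (h2 : (2 : F) ≠ 0) {R : Subgroup (GL ι F)} (hcf : CF 3 R) (he : ∀ x ∈ R, x ^ 3 = 1)
    {a b : GL ι F} (ha : a ∈ R) (hb : b ∈ R) {ω : Fˣ} (hω : (ω : F) ^ 2 + ω + 1 = 0)
    (hab : a * b = sc ι ω * (b * a)) {x : GL ι F} (hd : x.1.det = 1) (hns : ∀ c : F, x.1 ≠ c • 1)
    {z : Fˣ} {r : ℕ} (hz : x ^ r = sc ι z)
    (H : r = 2 ∨ (r = 3 ∧ ∀ u : Fˣ, u ^ 3 = 1 → ∃ w, w ^ 3 = u)) :
    SSm x ∧ ∃ w : Fˣ, (w ^ 3 = 1 ∨ (r = 3 ∧ w ^ 9 = 1)) ∧
      ∃ y ∈ Subgroup.normalizer (R : Set (GL ι F)), SSm y ∧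
      x.1.charpoly = (sc ι w * y).1.charpoly ∧ Iso R (fun σ => σ ω = ω ^ 2) y := by
  have hz3 : z ^ 3 = 1 := Units.ext (by
    have := congrArg (fun u : GL ι F => u.1.det) hz
    simp only [Units.val_pow_eq_pow_val, Matrix.det_pow, hd, sc_coe, Matrix.det_smul, h3] at this
    simpa using this.symm)
  have hω1 : (ω : F) ≠ 1 := fun e => h3' (by rw [e] at hω; linear_combination hω)
  rcases H with rfl | ⟨rfl, H⟩
  · have hsx := ssm_of_pow h2 hz
    have e : z = (z ^ 2) ^ 2 := by rw [← pow_mul, pow_succ, hz3, one_mul]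
    have e1 := split_pow (hz.trans (congrArg _ e))
    have e2 : (z ^ 2) ^ 3 = 1 := by rw [← pow_mul, mul_comm, pow_mul, hz3, one_pow]
    obtain ⟨y, y1, y2, y3, y4, y5⟩ := exists_invol h3 h3' h2 hcf he ha hb hω hab
    have hsy : SSm y := ⟨2, h2, by rw [sq, y2]⟩
    refine ⟨hsx, z ^ 2, .inl e2, y, y1, hsy, ev_eq_smul hsx hsy ?_, y5⟩
    rw [inv_three h3 h2 (congrArg Units.val y2) y3 y4, inv_three h3 h2
      (by rw [← Units.val_mul, ← sq, e1, Units.val_one])
      (fun e => ns_smul hns _ 1 (by rw [e]; simp))]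
    rw [coe_sc_mul, Matrix.det_smul, hd, h3, ← Units.val_pow_eq_pow_val, inv_pow, e2]; simp
  · have hsx := ssm_of_pow h3' hz
    obtain ⟨w, rfl⟩ := H z hz3
    have w9 : w ^ 9 = 1 := by rw [← hz3, ← pow_mul]
    have e1 := split_pow hz
    obtain ⟨t, t1, t2, t3, -, -, t6⟩ := exists_t h3 h3' h2 hcf he ha hb hω hab
    have hst : SSm t := ⟨3, h3', t2⟩
    refine ⟨hsx, ?_⟩
    rcases three_three h3 h3' e1 (ns_smul hns _) hω with e | ⟨α, hα, e⟩
    · have has : a ∉ scalars ι F := by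
        intro h
        obtain ⟨u, rfl⟩ := mem_scalars.1 h
        rw [sc_comm u b] at hab
        exact hω1 (congrArg Units.val (sc_inj (ι := ι) ((mul_right_cancel
          (hab.symm.trans (one_mul _).symm)).trans (map_one _).symm)))
      exact ⟨w, .inr ⟨rfl, w9⟩, a, Subgroup.le_normalizer ha, ⟨3, h3', he a ha⟩,
        ev_eq_smul hsx ⟨3, h3', he a ha⟩ (e.trans (ev_mem27 h3 h3' hω hcf he ha has).symm),
        fun σ st _ hs _ => hs a ha⟩
    · have hα0 : α ≠ 0 := by rintro rfl; simp at hα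
      have hu : (w * Units.mk0 α hα0) ^ 9 = 1 := by
        rw [mul_pow, w9, one_mul]
        exact Units.ext (by simp; linear_combination (α ^ 6 + α ^ 3 + 1) * hα)
      have key : ∀ y : GL ι F, SSm y → Ev (sc ι w⁻¹ * x) = (Ev y).map (φ α * ·) →
          x.1.charpoly = (sc ι (w * Units.mk0 α hα0) * y).1.charpoly := fun y hy h => by
        rw [map_mul, mul_assoc]
        exact ev_eq_smul hsx (hy.smul _) (h.trans (hy.ev_smul (Units.mk0 α hα0)).symm)
      rcases e with e | e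
      · exact ⟨_, .inr ⟨rfl, hu⟩, t, t1, hst, key t hst (t3 ▸ e), t6⟩
      · refine ⟨_, .inr ⟨rfl, hu⟩, t ^ 2, pow_mem t1 2, hst.pow 2, key _ (hst.pow 2) ?_,
          fun σ st S hs hσ => ?_⟩
        · rw [e, hst.ev_pow, t3]; simp
        · rw [sq]; simpa using (t6 σ st S hs hσ).mul S (t6 σ st S hs hσ)

theorem cube9 [Finite F] (h : 9 ∣ Nat.card Fˣ) (u : Fˣ) (hu : u ^ 3 = 1) : ∃ w, w ^ 3 = u := by
  haveI := Fact.mk Nat.prime_three
  by_contra! hw
  have h1 := (H18.El.cyc_nonpow (G := Fˣ) (r := 3) ((show 3 ∣ 9 by norm_num).trans h)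
    three_ne_zero).1 ⟨u, hw, hu⟩
  have h2 := (padicValNat_dvd_iff_le (p := 3) (n := 2) Nat.card_pos.ne').1 h
  rw [padicValNat_self] at h1
  omega

end Cfsg.Agent.H13.XE
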